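import Mathlib

/-!
# Livingstone–Wagner: basic tools for permutation groups

Working language for the Livingstone–Wagner theorems: subgroups of `Perm Ω`, the pointwise
stabiliser `ptS`, the "realised group" `rz G Δ` and the handy form `TT G k` of `k`-transitivity.
-/

set_option autoImplicit false
set_option linter.unusedSectionVars false
set_option linter.unusedVariables false

namespace Cfsg.Agent.LW

open Equiv Equiv.Perm

section GroupLemmas

variable {Γ : Type*} [Group Γ]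

/-- Square root of an element of odd order. -/
noncomputable def rt (y : Γ) : Γ := y ^ ((orderOf y + 1) / 2)

lemma rt_mul_self {y : Γ} (h : Odd (orderOf y)) : rt y * rt y = y := by
  obtain ⟨c, hc⟩ := h
  have h1 : (orderOf y + 1) / 2 = c + 1 := by omega
  unfold rt
  rw [h1, ← pow_add]
  have h2 : c + 1 + (c + 1) = orderOf y + 1 := by omega
  rw [h2, pow_succ, pow_orderOf_eq_one, one_mul]

lemma inv_conj_pow {z y : Γ} (h : z * y * z⁻¹ = y⁻¹) (e : ℕ) : z * y ^ e * z⁻¹ = (y ^ e)⁻¹ := by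
  rw [← conj_pow, h, inv_pow]

lemma inv_conj_rt {z y : Γ} (h : z * y * z⁻¹ = y⁻¹) : z * rt y * z⁻¹ = (rt y)⁻¹ :=
  inv_conj_pow h _

/-- The conjugation lemma: two involutions whose product has odd order are conjugate by the square
root of the product. -/
lemma conj_rt {z j : Γ} (hz : z * z = 1) (hj : j * j = 1) (h : Odd (orderOf (z * j))) :
    rt (z * j) * j * (rt (z * j))⁻¹ = z := by
  set y := z * j with hy
  have hz' : z⁻¹ = z := inv_eq_of_mul_eq_one_left hz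
  have hj' : j⁻¹ = j := inv_eq_of_mul_eq_one_left hj
  have h1 : j * y * j⁻¹ = y⁻¹ := by
    rw [hy, mul_inv_rev, hz', hj', mul_assoc, mul_assoc, hj, mul_one]
  have h2 : j * rt y * j⁻¹ = (rt y)⁻¹ := inv_conj_rt h1
  have h3 : j * (rt y)⁻¹ * j⁻¹ = rt y := by
    have : j * (rt y)⁻¹ * j⁻¹ = (j * rt y * j⁻¹)⁻¹ := by group
    rw [this, h2, inv_inv]
  calc rt y * j * (rt y)⁻¹ = rt y * (j * (rt y)⁻¹ * j⁻¹) * j := by group
    _ = rt y * rt y * j := by rw [h3, mul_assoc]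
    _ = y * j := by rw [rt_mul_self h]
    _ = z := by rw [hy, mul_assoc, hj, mul_one]

lemma even_order_invol [Finite Γ] {g : Γ} (h : ¬ Odd (orderOf g)) :
    ∃ c : ℕ, g ^ c * g ^ c = 1 ∧ g ^ c ≠ 1 := by
  rw [Nat.not_odd_iff_even] at h
  obtain ⟨c, hc⟩ := h
  refine ⟨c, ?_, ?_⟩
  · rw [← pow_add, ← hc, pow_orderOf_eq_one]
  · intro h1
    have h2 := orderOf_dvd_of_pow_eq_one h1
    have h3 : 0 < orderOf g := orderOf_pos g
    have h4 := Nat.le_of_dvd (by omega) h2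
    omega

lemma card_odd_of_forall_odd [Finite Γ] (H : Subgroup Γ) (h : ∀ g ∈ H, Odd (orderOf g)) :
    Odd (Nat.card H) := by
  by_contra h1
  rw [Nat.not_odd_iff_even] at h1
  obtain ⟨x, hx⟩ := exists_prime_orderOf_dvd_card' (G := H) 2 h1.two_dvd
  have h2 := h x x.2
  have h3 : orderOf (x : Γ) = 2 := by rw [Subgroup.orderOf_coe]; exact hx
  rw [h3] at h2
  exact absurd h2 (by decide)

/-- An involution on a finite set of odd size has a fixed point. -/
lemma exists_fixed_of_odd {β : Type*} (W : Finset β) (f : β → β) (hW : ∀ x ∈ W, f x ∈ W)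
    (hf : ∀ x ∈ W, f (f x) = x) (hodd : Odd W.card) : ∃ x ∈ W, f x = x := by
  by_contra hcon
  push Not at hcon
  have h1 : ∑ x ∈ W, (1 : ZMod 2) = 0 := by
    apply Finset.sum_involution (fun a _ => f a)
    · intro a _; decide
    · intro a ha _; exact hcon a ha
    · intro a ha; exact hW a ha
    · intro a ha; exact hf a ha
  rw [Finset.sum_const, nsmul_eq_mul, mul_one, ZMod.natCast_eq_zero_iff] at h1
  obtain ⟨c, hc⟩ := hodd
  omega

/-- A non-trivial 2-element has an involution among its powers. -/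
lemma exists_invol_pow [Finite Γ] {e : Γ} {f : ℕ} (h : e ^ (2 ^ f) = 1) (hne : e ≠ 1) :
    ∃ i : ℕ, e ^ i * e ^ i = 1 ∧ e ^ i ≠ 1 := by
  apply even_order_invol
  intro hodd
  have h1 : orderOf e ∣ 2 ^ f := orderOf_dvd_of_pow_eq_one h
  have h2 : Nat.Coprime (orderOf e) (2 ^ f) := Nat.Coprime.pow_right _ (Nat.coprime_two_right.mpr hodd)
  have h3 : orderOf e = 1 := Nat.Coprime.eq_one_of_dvd h2 h1
  exact hne (orderOf_eq_one_iff.mp h3)

end GroupLemmas

section Sylow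

variable {Γ : Type*} [Group Γ] [Finite Γ]

/-- `Q` is a Sylow 2-subgroup of the subgroup `H`. -/
structure IsSyl (H Q : Subgroup Γ) : Prop where
  le : Q ≤ H
  pg : IsPGroup 2 Q
  max : ∀ R : Subgroup Γ, R ≤ H → IsPGroup 2 R → Q ≤ R → R = Q

lemma exists_isSyl (H P : Subgroup Γ) (hPH : P ≤ H) (hP : IsPGroup 2 P) :
    ∃ Q, IsSyl H Q ∧ P ≤ Q := by
  have hP' : IsPGroup 2 (P.subgroupOf H) := hP.comap_subtype
  obtain ⟨S, hS⟩ := hP'.exists_le_sylow
  refine ⟨(S : Subgroup H).map H.subtype, ⟨?_, ?_, ?_⟩, ?_⟩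
  · exact Subgroup.map_subtype_le _
  · exact S.isPGroup'.map _
  · intro R hRH hR hQR
    have h1 : IsPGroup 2 (R.subgroupOf H) := hR.comap_subtype
    have h2 : (S : Subgroup H) ≤ R.subgroupOf H := by
      intro x hx
      exact Subgroup.mem_subgroupOf.mpr (hQR ⟨x, hx, rfl⟩)
    have h3 := S.is_maximal' h1 h2
    apply le_antisymm
    · intro x hx
      have : (⟨x, hRH hx⟩ : H) ∈ R.subgroupOf H := Subgroup.mem_subgroupOf.mpr hx
      rw [h3] at this
      exact ⟨_, this, rfl⟩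
    · exact hQR
  · intro x hx
    exact ⟨⟨x, hPH hx⟩, hS (Subgroup.mem_subgroupOf.mpr hx), rfl⟩

/-- View an `IsSyl` as an element of `Sylow 2 H`. -/
noncomputable def IsSyl.toSylow {H Q : Subgroup Γ} (h : IsSyl H Q) : Sylow 2 H where
  toSubgroup := Q.subgroupOf H
  isPGroup' := h.pg.comap_subtype
  is_maximal' := by
    intro R hR hle
    have h1 : IsPGroup 2 (R.map H.subtype) := hR.map _
    have h2 : Q ≤ R.map H.subtype := by
      intro x hx
      exact ⟨⟨x, h.le hx⟩, hle (Subgroup.mem_subgroupOf.mpr hx), rfl⟩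
    have h3 := h.max _ (Subgroup.map_subtype_le _) h1 h2
    apply le_antisymm
    · intro x hx
      have : (x : Γ) ∈ R.map H.subtype := ⟨x, hx, rfl⟩
      rw [h3] at this
      exact Subgroup.mem_subgroupOf.mpr this
    · exact hle

/-- Sylow conjugacy inside `H`. -/
lemma IsSyl.conj {H Q₁ Q₂ : Subgroup Γ} (h₁ : IsSyl H Q₁) (h₂ : IsSyl H Q₂) :
    ∃ h ∈ H, ∀ x, x ∈ Q₁ ↔ h * x * h⁻¹ ∈ Q₂ := by
  obtain ⟨t, ht⟩ := MulAction.exists_smul_eq H h₁.toSylow h₂.toSylow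
  refine ⟨t, t.2, fun x => ?_⟩
  have key : ∀ y : H, y ∈ (h₁.toSylow : Subgroup H) ↔ t * y * t⁻¹ ∈ (h₂.toSylow : Subgroup H) := by
    intro y
    rw [← ht, Sylow.coe_subgroup_smul, Subgroup.mem_pointwise_smul_iff_inv_smul_mem]
    simp [MulAut.smul_def, MulAut.conj_apply, mul_assoc]
  constructor
  · intro hx
    have h3 : (⟨x, h₁.le hx⟩ : H) ∈ (h₁.toSylow : Subgroup H) := Subgroup.mem_subgroupOf.mpr hx
    have h4 := (key _).mp h3
    exact Subgroup.mem_subgroupOf.mp h4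
  · intro hx
    have h5 : t.1 * x * t.1⁻¹ ∈ H := h₂.le hx
    have h6 : x ∈ H := by
      have : x = t.1⁻¹ * (t.1 * x * t.1⁻¹) * t.1 := by group
      rw [this]
      exact H.mul_mem (H.mul_mem (H.inv_mem t.2) h5) t.2
    have h7 : (⟨x, h6⟩ : H) ∈ (h₁.toSylow : Subgroup H) := by
      rw [key]
      exact Subgroup.mem_subgroupOf.mpr hx
    exact Subgroup.mem_subgroupOf.mp h7

/-- A 2-element of `H` can be conjugated (in `H`) into any Sylow 2-subgroup of `H`. -/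
lemma IsSyl.conj_into {H Q : Subgroup Γ} (hQ : IsSyl H Q) (P : Subgroup Γ) (hPH : P ≤ H)
    (hP : IsPGroup 2 P) : ∃ h ∈ H, ∀ x ∈ P, h * x * h⁻¹ ∈ Q := by
  obtain ⟨Q', hQ', hle⟩ := exists_isSyl H P hPH hP
  obtain ⟨h, hh, hc⟩ := hQ'.conj hQ
  exact ⟨h, hh, fun x hx => (hc x).mp (hle hx)⟩

lemma IsSyl.not_two_dvd_index {H Q : Subgroup Γ} (h : IsSyl H Q) :
    ¬ 2 ∣ (Q.subgroupOf H).index :=
  h.toSylow.not_dvd_index

/-- card formula: `|H| = |Q| * odd`. -/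
lemma IsSyl.card_eq {H Q : Subgroup Γ} (h : IsSyl H Q) :
    ∃ o, Odd o ∧ Nat.card H = Nat.card Q * o := by
  refine ⟨(Q.subgroupOf H).index, ?_, ?_⟩
  · exact Nat.odd_iff.mpr (by have := h.not_two_dvd_index; omega)
  · have h1 := (Q.subgroupOf H).card_mul_index
    rw [Nat.card_congr (Subgroup.subgroupOfEquivOfLe h.le).toEquiv] at h1
    exact h1.symm

/-- Same-order criterion: a 2-subgroup of `H` with the order of a Sylow subgroup is Sylow. -/
lemma IsSyl.of_card_eq {H Q Q' : Subgroup Γ} (h : IsSyl H Q) (hQ'H : Q' ≤ H) (hQ' : IsPGroup 2 Q')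
    (hc : Nat.card Q' = Nat.card Q) : IsSyl H Q' := by
  refine ⟨hQ'H, hQ', fun R hRH hR hle => ?_⟩
  obtain ⟨Q₁, hQ₁, hRQ₁⟩ := exists_isSyl H R hRH hR
  obtain ⟨g, hg, hc'⟩ := h.conj hQ₁
  have h1 : Nat.card Q₁ = Nat.card Q := by
    have e : Q₁ = Q.map (MulAut.conj g).toMonoidHom := by
      ext x
      constructor
      · intro hx
        refine ⟨g⁻¹ * x * g, ?_, by simp [MulAut.conj_apply]; group⟩
        rw [SetLike.mem_coe, hc']
        have : g * (g⁻¹ * x * g) * g⁻¹ = x := by group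
        rw [this]; exact hx
      · rintro ⟨y, hy, rfl⟩
        have := (hc' y).mp hy
        simpa [MulAut.conj_apply] using this
    rw [e, Nat.card_congr (Q.equivMapOfInjective _ (MulAut.conj g).injective).symm.toEquiv]
  have h2 : Nat.card R ≤ Nat.card Q' := by
    rw [hc, ← h1]
    exact Subgroup.card_le_of_le hRQ₁
  exact (Subgroup.eq_of_le_of_card_ge hle h2).symm

end Sylow

section Perm

variable {Ω : Type*} [Fintype Ω] [DecidableEq Ω]

/-- The handy form of `k`-transitivity: any permutation can be imitated on any set of size `≤ k`. -/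
def TT (G : Subgroup (Perm Ω)) (k : ℕ) : Prop :=
  ∀ (σ : Perm Ω) (s : Finset Ω), s.card ≤ k → ∃ g ∈ G, ∀ x ∈ s, g x = σ x

/-- Fixed points of a permutation. -/
def fx (g : Perm Ω) : Finset Ω := Finset.univ.filter fun x => g x = x

@[simp] lemma mem_fx {g : Perm Ω} {x : Ω} : x ∈ fx g ↔ g x = x := by simp [fx]

lemma fx_subset_pow (g : Perm Ω) (e : ℕ) : fx g ⊆ fx (g ^ e) := fun x hx => by
  rw [mem_fx] at *
  exact pow_apply_eq_self_of_apply_eq_self hx e

lemma fx_conj (g j : Perm Ω) : fx (g * j * g⁻¹) = (fx j).image g := by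
  ext x
  simp only [mem_fx, Finset.mem_image, Perm.mul_apply]
  constructor
  · intro h
    refine ⟨g⁻¹ x, ?_, by simp⟩
    have := congrArg (fun y => g⁻¹ y) h
    simpa using this
  · rintro ⟨y, hy, rfl⟩
    simp [hy]

lemma card_fx_conj (g j : Perm Ω) : (fx (g * j * g⁻¹)).card = (fx j).card := by
  rw [fx_conj, Finset.card_image_of_injective _ g.injective]

lemma card_fx_modEq {j : Perm Ω} (hj : j * j = 1) : (fx j).card ≡ Fintype.card Ω [MOD 2] := by
  have h1 : j ^ 2 ^ 1 = 1 := by rw [pow_one, pow_two, hj]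
  have h2 := card_compl_support_modEq h1
  have h3 : fx j = (j.support)ᶜ := by
    ext x
    simp
  rw [h3]
  exact h2

/-- Pointwise stabiliser of `s` in `G`. -/
def ptS (G : Subgroup (Perm Ω)) (s : Finset Ω) : Subgroup (Perm Ω) where
  carrier := {g | g ∈ G ∧ ∀ x ∈ s, g x = x}
  mul_mem' := by
    rintro a b ⟨ha, ha'⟩ ⟨hb, hb'⟩
    exact ⟨G.mul_mem ha hb, fun x hx => by simp [hb' x hx, ha' x hx]⟩
  one_mem' := ⟨G.one_mem, fun _ _ => rfl⟩
  inv_mem' := by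
    rintro a ⟨ha, ha'⟩
    refine ⟨G.inv_mem ha, fun x hx => ?_⟩
    rw [Perm.inv_eq_iff_eq]
    exact (ha' x hx).symm

lemma mem_ptS {G : Subgroup (Perm Ω)} {s : Finset Ω} {g : Perm Ω} :
    g ∈ ptS G s ↔ g ∈ G ∧ ∀ x ∈ s, g x = x := Iff.rfl

lemma ptS_le (G : Subgroup (Perm Ω)) (s : Finset Ω) : ptS G s ≤ G := fun _ h => h.1

/-- Setwise stabiliser of `s`. -/
def stS (s : Finset Ω) : Subgroup (Perm Ω) where
  carrier := {g | ∀ x, g x ∈ s ↔ x ∈ s}
  mul_mem' := by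
    intro a b ha hb x
    rw [Perm.mul_apply, ha, hb]
  one_mem' := fun _ => Iff.rfl
  inv_mem' := by
    intro a ha x
    rw [← ha (a⁻¹ x)]
    simp

lemma mem_stS {s : Finset Ω} {g : Perm Ω} : g ∈ stS s ↔ ∀ x, g x ∈ s ↔ x ∈ s := Iff.rfl

lemma stS_of_maps {s : Finset Ω} {g : Perm Ω} (h : ∀ x ∈ s, g x ∈ s) : g ∈ stS s := by
  intro x
  refine ⟨fun hx => ?_, h x⟩
  have h1 : s.image g = s :=
    Finset.eq_of_subset_of_card_le (by
      intro y hy
      obtain ⟨z, hz, rfl⟩ := Finset.mem_image.mp hy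
      exact h z hz) (by rw [Finset.card_image_of_injective _ g.injective])
  rw [← h1] at hx
  obtain ⟨z, hz, hzx⟩ := Finset.mem_image.mp hx
  rwa [← g.injective hzx]

/-- The group induced on `Δ` by the elements of `G` that stabilise it. -/
def rz (G : Subgroup (Perm Ω)) (Δ : Finset Ω) : Subgroup (Perm ↥Δ) where
  carrier := {σ | ∃ g ∈ G, ∀ x : ↥Δ, g x = σ x}
  mul_mem' := by
    rintro σ τ ⟨g, hg, hσ⟩ ⟨h, hh, hτ⟩
    exact ⟨g * h, G.mul_mem hg hh, fun x => by simp [hτ, hσ]⟩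
  one_mem' := ⟨1, G.one_mem, fun _ => rfl⟩
  inv_mem' := by
    rintro σ ⟨g, hg, hσ⟩
    refine ⟨g⁻¹, G.inv_mem hg, fun x => ?_⟩
    rw [Perm.inv_eq_iff_eq]
    rw [hσ]
    simp

lemma mem_rz {G : Subgroup (Perm Ω)} {Δ : Finset Ω} {σ : Perm ↥Δ} :
    σ ∈ rz G Δ ↔ ∃ g ∈ G, ∀ x : ↥Δ, g x = σ x := Iff.rfl

/-- An element of `G` preserving `Δ` gives an element of `rz G Δ`. -/
lemma mem_rz_of {G : Subgroup (Perm Ω)} {Δ : Finset Ω} {g : Perm Ω} (hg : g ∈ G) (σ : Perm ↥Δ)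
    (h : ∀ x : ↥Δ, g x = σ x) : σ ∈ rz G Δ := ⟨g, hg, h⟩

/-- Restriction of `g` to an invariant set. -/
def rs (g : Perm Ω) (Δ : Finset Ω) (h : ∀ x, g x ∈ Δ ↔ x ∈ Δ) : Perm ↥Δ :=
  g.subtypePerm h

@[simp] lemma rs_apply (g : Perm Ω) (Δ : Finset Ω) (h : ∀ x, g x ∈ Δ ↔ x ∈ Δ) (x : ↥Δ) :
    ((rs g Δ h x : ↥Δ) : Ω) = g x := rfl

/-- No involution fixes at least `k` points. -/
def NoInv (G : Subgroup (Perm Ω)) (k : ℕ) : Prop :=
  ∀ j ∈ G, j * j = 1 → k ≤ (fx j).card → j = 1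

lemma odd_order_of_noInv {G : Subgroup (Perm Ω)} {k : ℕ} (h : NoInv G k) {g : Perm Ω} (hg : g ∈ G)
    (hk : k ≤ (fx g).card) : Odd (orderOf g) := by
  by_contra h1
  obtain ⟨c, hc, hc'⟩ := even_order_invol h1
  exact hc' (h _ (G.pow_mem hg c) hc (hk.trans (Finset.card_le_card (fx_subset_pow g c))))

lemma odd_order_of_fix {G : Subgroup (Perm Ω)} {k : ℕ} (h : NoInv G k) {g : Perm Ω} (hg : g ∈ G)
    {t : Finset Ω} (ht : k ≤ t.card) (hgt : ∀ x ∈ t, g x = x) : Odd (orderOf g) :=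
  odd_order_of_noInv h hg (ht.trans (Finset.card_le_card fun x hx => mem_fx.mpr (hgt x hx)))

/-- Partial injections extend to permutations. -/
lemma exists_perm_ext (s : Finset Ω) (f : Ω → Ω) (hf : Set.InjOn f s) :
    ∃ σ : Perm Ω, ∀ x ∈ s, σ x = f x := by
  obtain ⟨g, hg⟩ := Finset.exists_equiv_extend_of_card_eq (α := Ω) (β := Ω) (t := Finset.univ)
    (by simp) (s := s) (f := f) (Finset.subset_univ _) hf
  refine ⟨g.trans (Equiv.subtypeUnivEquiv (fun x => Finset.mem_univ x)), fun x hx => ?_⟩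
  simpa using hg x hx

/-- Two sets of the same size are conjugate under `Perm Ω`. -/
lemma exists_perm_image {s t : Finset Ω} (h : s.card = t.card) :
    ∃ σ : Perm Ω, ∀ x, x ∈ s ↔ σ x ∈ t := by
  classical
  let e : ↥s ≃ ↥t := Finset.equivOfCardEq h
  let e' : {x // x ∈ s} ≃ {x // x ∈ t} := e
  refine ⟨e'.extendSubtype, fun x => ?_⟩
  by_cases hx : x ∈ s
  · simp only [hx, true_iff]
    rw [Equiv.extendSubtype_apply_of_mem e' x hx]
    exact (e' ⟨x, hx⟩).2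
  · simp only [hx, false_iff]
    exact Equiv.extendSubtype_not_mem e' x hx

lemma TT_of_isMultiplyPretransitive {G : Subgroup (Perm Ω)} {k : ℕ} (hk : k ≤ Fintype.card Ω)
    (h : MulAction.IsMultiplyPretransitive G Ω k) : TT G k := by
  intro σ s hs
  obtain ⟨s', hss', hs'⟩ := Finset.exists_superset_card_eq hs hk
  let e : Fin k ≃ ↥s' := (Finset.equivFinOfCardEq hs').symm
  let x : Fin k ↪ Ω := e.toEmbedding.trans (Function.Embedding.subtype _)
  let y : Fin k ↪ Ω := x.trans σ.toEmbedding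
  obtain ⟨g, hg⟩ := MulAction.exists_smul_eq G x y
  refine ⟨g, g.2, fun z hz => ?_⟩
  have hz' : z ∈ s' := hss' hz
  obtain ⟨i, hi⟩ := e.surjective ⟨z, hz'⟩
  have h1 := congrArg (fun f : Fin k ↪ Ω => f i) hg
  have h2 : x i = z := by simp [x, hi]
  have h3 : y i = σ z := by simp [y, h2]
  simp only [Function.Embedding.smul_apply, h3, h2] at h1
  exact h1

lemma isMultiplyPretransitive_of_TT {G : Subgroup (Perm Ω)} {k : ℕ} (h : TT G k) :
    MulAction.IsMultiplyPretransitive G Ω k := by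
  refine ⟨fun x y => ?_⟩
  obtain ⟨σ, hσ⟩ := (Equiv.Perm.isMultiplyPretransitive (α := Ω) k).exists_smul_eq x y
  have hc : (Finset.univ.image x).card ≤ k := by
    refine Finset.card_image_le.trans ?_
    simp
  obtain ⟨g, hg, hgσ⟩ := h σ _ hc
  refine ⟨⟨g, hg⟩, ?_⟩
  ext i
  have h1 := hgσ (x i) (Finset.mem_image_of_mem _ (Finset.mem_univ i))
  have h2 := congrArg (fun f : Fin k ↪ Ω => f i) hσ
  simp only [Function.Embedding.smul_apply] at h2
  change g (x i) = y i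
  rw [h1]
  exact h2

lemma TT.mono {G : Subgroup (Perm Ω)} {k l : ℕ} (h : TT G k) (hl : l ≤ k) : TT G l :=
  fun σ s hs => h σ s (hs.trans hl)

/-- Odd power lemma. -/
lemma odd_pow_acts {g₀ π : Perm Ω} {t : Finset Ω} (hπ : π * π = 1) (hπt : ∀ x ∈ t, π x ∈ t)
    (hg : ∀ x ∈ t, g₀ x = π x) (hodd : Odd (orderOf (g₀ * g₀))) :
    ∃ e : ℕ, Odd e ∧ g₀ ^ e * g₀ ^ e = 1 ∧ ∀ x ∈ t, (g₀ ^ e) x = π x := by
  refine ⟨_, hodd, ?_, fun x hx => ?_⟩
  · have : g₀ ^ orderOf (g₀ * g₀) * g₀ ^ orderOf (g₀ * g₀) = (g₀ * g₀) ^ orderOf (g₀ * g₀) := by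
      rw [← pow_add, ← two_mul, pow_mul, pow_two]
    rw [this, pow_orderOf_eq_one]
  · have key : ∀ i : ℕ, ∀ y ∈ t, (g₀ ^ i) y = (π ^ i) y ∧ (π ^ i) y ∈ t := by
      intro i
      induction i with
      | zero => intro y hy; simpa using hy
      | succ i ih =>
        intro y hy
        rw [pow_succ', pow_succ', Perm.mul_apply, Perm.mul_apply]
        obtain ⟨h1, h2⟩ := ih y hy
        rw [h1, hg _ h2]
        exact ⟨rfl, hπt _ h2⟩
    obtain ⟨c, hc⟩ := hodd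
    rw [(key _ x hx).1, hc, pow_succ, pow_mul, pow_two, hπ, one_pow, one_mul]

/-- Involutions with prescribed action, when no involution fixes `k` points. -/
lemma exists_invol_acting {G : Subgroup (Perm Ω)} {k : ℕ} (hG : TT G k) (hI : NoInv G k)
    {π : Perm Ω} {t : Finset Ω} (ht : t.card = k) (hπ : π * π = 1) (hπt : ∀ x ∈ t, π x ∈ t) :
    ∃ g ∈ G, g * g = 1 ∧ ∀ x ∈ t, g x = π x := by
  obtain ⟨g₀, hg₀, hg⟩ := hG π t ht.le
  have h1 : Odd (orderOf (g₀ * g₀)) := by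
    refine odd_order_of_fix hI (G.mul_mem hg₀ hg₀) ht.ge fun x hx => ?_
    rw [Perm.mul_apply, hg x hx, hg _ (hπt x hx), ← Perm.mul_apply, hπ]
    rfl
  obtain ⟨e, -, he, hact⟩ := odd_pow_acts hπ hπt hg h1
  exact ⟨g₀ ^ e, G.pow_mem hg₀ e, he, hact⟩

/-- The coset trick: an involution acting on the odd coset has a fixed element. -/
lemma exists_comm_invol {G : Subgroup (Perm Ω)} {k : ℕ} (hG : TT G k) (hI : NoInv G k)
    {t : Finset Ω} (ht : t.card = k) {v π : Perm Ω} (hv : v ∈ G) (hv2 : v * v = 1)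
    (hvt : ∀ x ∈ t, v x ∈ t) (hπ : π * π = 1) (hπt : ∀ x ∈ t, π x ∈ t)
    (hcomm : ∀ x ∈ t, v (π x) = π (v x)) :
    ∃ g ∈ G, g * g = 1 ∧ g * v = v * g ∧ ∀ x ∈ t, g x = π x := by
  classical
  obtain ⟨g₀, hg₀, hg⟩ := hG π t ht.le
  have hU : ∀ g ∈ ptS G t, Odd (orderOf g) := fun g hg =>
    odd_order_of_fix hI hg.1 ht.ge hg.2
  have hcard := card_odd_of_forall_odd (ptS G t) hU
  let T : Finset (Perm Ω) := Finset.univ.filter (· ∈ ptS G t)
  have hT : Nat.card (ptS G t) = T.card := by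
    rw [Nat.card_eq_fintype_card]
    exact Fintype.card_of_subtype T (by simp [T])
  let W : Finset (Perm Ω) := T.image (· * g₀)
  have hWc : W.card = T.card := Finset.card_image_of_injective _ (mul_left_injective g₀)
  have hW : ∀ g, g ∈ W ↔ g ∈ G ∧ ∀ x ∈ t, g x = π x := by
    intro g
    simp only [W, T, Finset.mem_image, Finset.mem_filter, Finset.mem_univ, true_and]
    constructor
    · rintro ⟨u, hu, rfl⟩
      refine ⟨G.mul_mem hu.1 hg₀, fun x hx => ?_⟩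
      rw [Perm.mul_apply, hg x hx, hu.2 _ (hπt x hx)]
    · rintro ⟨h1, h2⟩
      refine ⟨g * g₀⁻¹, ⟨G.mul_mem h1 (G.inv_mem hg₀), fun x hx => ?_⟩, by group⟩
      have hinv : π (π x) = x := by
        rw [← Perm.mul_apply, hπ]; rfl
      have h3 : g₀⁻¹ x = π x := by
        rw [Perm.inv_eq_iff_eq, hg _ (hπt x hx), hinv]
      rw [Perm.mul_apply, h3, h2 _ (hπt x hx), hinv]
  have hfix := exists_fixed_of_odd W (fun g => v * g * v) (by
    intro g hg'
    rw [hW] at hg' ⊢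
    refine ⟨G.mul_mem (G.mul_mem hv hg'.1) hv, fun x hx => ?_⟩
    rw [Perm.mul_apply, Perm.mul_apply, hg'.2 _ (hvt x hx)]
    have h5 := hcomm (v x) (hvt x hx)
    have h6 : v (v x) = x := by rw [← Perm.mul_apply, hv2]; rfl
    rw [h6] at h5
    rw [h5]) (by
    intro g _
    calc v * (v * g * v) * v = (v * v) * g * (v * v) := by group
      _ = g := by rw [hv2]; group) (by
    rw [hWc, ← hT]; exact hcard)
  obtain ⟨g₁, hg₁, hfx⟩ := hfix
  rw [hW] at hg₁
  have hvinv : v⁻¹ = v := inv_eq_of_mul_eq_one_left hv2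
  have hcm : g₁ * v = v * g₁ := by
    calc g₁ * v = (v * g₁ * v) * v := by rw [hfx]
      _ = v * g₁ * (v * v) := by group
      _ = v * g₁ := by rw [hv2, mul_one]
  have h1 : Odd (orderOf (g₁ * g₁)) := by
    refine odd_order_of_fix hI (G.mul_mem hg₁.1 hg₁.1) ht.ge fun x hx => ?_
    rw [Perm.mul_apply, hg₁.2 x hx, hg₁.2 _ (hπt x hx), ← Perm.mul_apply, hπ]
    rfl
  obtain ⟨e, -, he, hact⟩ := odd_pow_acts hπ hπt hg₁.2 h1
  exact ⟨g₁ ^ e, G.pow_mem hg₁.1 e, he, (Commute.pow_left hcm e), hact⟩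

/-- Realising a transposition of `Δ`. -/
def Rs (G : Subgroup (Perm Ω)) (Δ : Finset Ω) (p q : Ω) : Prop :=
  ∃ g ∈ G, ∀ x ∈ Δ, g x = swap p q x

lemma Rs.conj {G : Subgroup (Perm Ω)} {Δ : Finset Ω} {p q w : Ω} (hp : p ∈ Δ) (hq : q ∈ Δ) (hw : w ∈ Δ)
    (hpq : p ≠ q) (hqw : q ≠ w) (h1 : Rs G Δ p w) (h2 : Rs G Δ q w) : Rs G Δ p q := by
  obtain ⟨g₁, hg₁, h₁⟩ := h1
  obtain ⟨g₂, hg₂, h₂⟩ := h2
  have hsw : ∀ a b : Ω, a ∈ Δ → b ∈ Δ → ∀ x ∈ Δ, swap a b x ∈ Δ := by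
    intro a b ha hb x hx
    rw [swap_apply_def]
    split_ifs <;> assumption
  refine ⟨g₁ * g₂ * g₁, G.mul_mem (G.mul_mem hg₁ hg₂) hg₁, fun x hx => ?_⟩
  rw [Perm.mul_apply, Perm.mul_apply, h₁ x hx, h₂ _ (hsw _ _ hp hw x hx),
    h₁ _ (hsw _ _ hq hw _ (hsw _ _ hp hw x hx))]
  have h3 := Equiv.swap_apply_apply (swap p w) q w
  rw [swap_apply_of_ne_of_ne hpq.symm hqw, swap_apply_right, swap_comm q p] at h3
  rw [h3]
  simp [swap_inv]

lemma rz_eq_top_of_swaps {G : Subgroup (Perm Ω)} {Δ : Finset Ω}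
    (h : ∀ p ∈ Δ, ∀ q ∈ Δ, p ≠ q → Rs G Δ p q) : rz G Δ = ⊤ := by
  rw [eq_top_iff, ← Equiv.Perm.closure_isSwap, Subgroup.closure_le]
  rintro σ ⟨p, q, hpq, rfl⟩
  obtain ⟨g, hg, hact⟩ := h p p.2 q q.2 (fun h' => hpq (Subtype.ext h'))
  refine ⟨g, hg, fun x => ?_⟩
  rw [hact x x.2, Function.Injective.swap_apply Subtype.coe_injective]

end Perm

end Cfsg.Agent.LW
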