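import Cfsg.Agent.Lib.LW.Basic

/-!
# Livingstone–Wagner: the case `n - k` odd with no involution fixing `k` points.
-/

set_option autoImplicit false
set_option linter.unusedSectionVars false
set_option linter.unusedVariables false

namespace Cfsg.Agent.LW

open Equiv Equiv.Perm

variable {Ω : Type*} [Fintype Ω] [DecidableEq Ω]

lemma swap_comm_apply {a b c d : Ω} (hac : a ≠ c) (had : a ≠ d) (hbc : b ≠ c) (hbd : b ≠ d) (x : Ω) :
    swap a b (swap c d x) = swap c d (swap a b x) := by
  have h : Disjoint (swap a b) (swap c d) := by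
    intro y
    by_cases h1 : y = a
    · subst h1
      right
      exact swap_apply_of_ne_of_ne hac had
    · by_cases h2 : y = b
      · subst h2
        right
        exact swap_apply_of_ne_of_ne hbc hbd
      · left
        exact swap_apply_of_ne_of_ne h1 h2
  have := h.commute.eq
  have h3 := congrArg (fun f : Perm Ω => f x) this
  simpa using h3

lemma invol_apply {j : Perm Ω} (hj : j * j = 1) (x : Ω) : j (j x) = x := by
  rw [← Perm.mul_apply, hj]; rfl

lemma invol_inv {j : Perm Ω} (hj : j * j = 1) : j⁻¹ = j := inv_eq_of_mul_eq_one_left hj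

lemma rt_apply_of_fix {y : Perm Ω} {x : Ω} (h : y x = x) : rt y x = x :=
  pow_apply_eq_self_of_apply_eq_self h _

lemma rt_inv_apply_of_fix {y : Perm Ω} {x : Ω} (h : y x = x) : (rt y)⁻¹ x = x := by
  rw [Perm.inv_eq_iff_eq]
  exact (rt_apply_of_fix h).symm

/-- Four points of a set of size at least four. -/
lemma exists_config_in (t : Finset Ω) (ht : 4 ≤ t.card) :
    ∃ (L : Finset Ω) (a b c d : Ω), L.card + 4 = t.card ∧ a ∉ L ∧ b ∉ L ∧ c ∉ L ∧ d ∉ L ∧
      a ≠ b ∧ a ≠ c ∧ a ≠ d ∧ b ≠ c ∧ b ≠ d ∧ c ≠ d ∧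
      ∀ x, x ∈ t ↔ x = a ∨ x = b ∨ x = c ∨ x = d ∨ x ∈ L := by
  obtain ⟨a, ha⟩ : t.Nonempty := Finset.card_pos.mp (by omega)
  have h1 : (t.erase a).card = t.card - 1 := Finset.card_erase_of_mem ha
  obtain ⟨b, hb⟩ : (t.erase a).Nonempty := Finset.card_pos.mp (by omega)
  have h2 : ((t.erase a).erase b).card = t.card - 2 := by
    rw [Finset.card_erase_of_mem hb]; omega
  obtain ⟨c, hc⟩ : ((t.erase a).erase b).Nonempty := Finset.card_pos.mp (by omega)
  have h3 : (((t.erase a).erase b).erase c).card = t.card - 3 := by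
    rw [Finset.card_erase_of_mem hc]; omega
  obtain ⟨d, hd⟩ : (((t.erase a).erase b).erase c).Nonempty := Finset.card_pos.mp (by omega)
  have h4 : ((((t.erase a).erase b).erase c).erase d).card = t.card - 4 := by
    rw [Finset.card_erase_of_mem hd]; omega
  simp only [Finset.mem_erase] at hb hc hd
  refine ⟨((((t.erase a).erase b).erase c).erase d), a, b, c, d, by omega, ?_, ?_, ?_, ?_, ?_, ?_, ?_, ?_, ?_, ?_, ?_⟩
  · simp
  · simp
  · simp
  · simp
  · exact hb.1.symm
  · exact hc.2.1.symm
  · exact hd.2.2.1.symm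
  · exact hc.1.symm
  · exact hd.2.1.symm
  · exact hd.1.symm
  · intro x
    simp only [Finset.mem_erase]
    constructor
    · intro hx
      by_cases h5 : x = a
      · exact Or.inl h5
      by_cases h6 : x = b
      · exact Or.inr (Or.inl h6)
      by_cases h7 : x = c
      · exact Or.inr (Or.inr (Or.inl h7))
      by_cases h8 : x = d
      · exact Or.inr (Or.inr (Or.inr (Or.inl h8)))
      exact Or.inr (Or.inr (Or.inr (Or.inr ⟨h8, h7, h6, h5, hx⟩)))
    · rintro (rfl | rfl | rfl | rfl | h)
      · exact ha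
      · exact hb.2
      · exact hc.2.2
      · exact hd.2.2.2
      · exact h.2.2.2.2

/-- The swap lemma: an involution with exactly `k - 1` fixed points has centraliser inducing every
transposition on its fixed points, fixing a given 2-cycle. -/
lemma swap_lemma {G : Subgroup (Perm Ω)} {k : ℕ} (hG : TT G k) (hI : NoInv G k) {z : Perm Ω}
    (hz : z ∈ G) (hz2 : z * z = 1) (hFz : (fx z).card + 1 = k) {a b p q r : Ω} (hab : z a = b)
    (ha : a ∉ fx z) (hp : p ∈ fx z) (hq : q ∈ fx z) (hr : r ∈ fx z) (hrp : r ≠ p) (hrq : r ≠ q) :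
    ∃ g ∈ G, g a = a ∧ g b = b ∧ ∀ x ∈ fx z, g x = swap p q x := by
  have hba : z b = a := by rw [← hab, invol_apply hz2]
  have hane : a ≠ b := by
    rintro rfl
    exact ha (mem_fx.mpr hab)
  have hb : b ∉ fx z := by
    intro h
    rw [mem_fx, hba] at h
    exact hane h
  set ρ := (fx z).erase r with hρ
  have hρc : ρ.card + 2 = k := by
    rw [hρ, Finset.card_erase_of_mem hr]
    have := Finset.card_pos.mpr ⟨r, hr⟩
    omega
  set t := insert a (insert b ρ) with ht
  have haρ : a ∉ ρ := fun h => ha (Finset.mem_of_mem_erase h)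
  have hbρ : b ∉ ρ := fun h => hb (Finset.mem_of_mem_erase h)
  have htc : t.card = k := by
    rw [ht, Finset.card_insert_of_notMem (by simp [hane, haρ]), Finset.card_insert_of_notMem hbρ]
    omega
  have hapq : ∀ y ∉ fx z, swap p q y = y := by
    intro y hy
    apply swap_apply_of_ne_of_ne
    · rintro rfl; exact hy hp
    · rintro rfl; exact hy hq
  have hsF : ∀ x ∈ fx z, swap p q x ∈ fx z := by
    intro x hx
    rw [swap_apply_def]
    split_ifs <;> assumption
  have hsρ : ∀ x ∈ ρ, swap p q x ∈ ρ := by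
    intro x hx
    rw [hρ, Finset.mem_erase] at hx ⊢
    refine ⟨?_, hsF x hx.2⟩
    intro h
    have h1 : swap p q r = r := swap_apply_of_ne_of_ne hrp hrq
    apply hx.1
    rw [← swap_apply_self p q x, h, h1]
  obtain ⟨g₀, hg₀, hg₀a⟩ := hG (swap p q) t htc.le
  have hg₀1 : g₀ a = a := by
    rw [hg₀a a (by simp [ht]), hapq a ha]
  have hg₀2 : g₀ b = b := by
    rw [hg₀a b (by simp [ht]), hapq b hb]
  have hg₀3 : ∀ x ∈ ρ, g₀ x = swap p q x := fun x hx => hg₀a x (by simp [ht, hx])
  have hinv : ∀ x ∈ ρ, g₀⁻¹ x = swap p q x := by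
    intro x hx
    rw [Perm.inv_eq_iff_eq, hg₀3 _ (hsρ x hx), swap_apply_self]
  set j := g₀ * z * g₀⁻¹ with hj
  have hj2 : j * j = 1 := by
    calc j * j = g₀ * (z * z) * g₀⁻¹ := by rw [hj]; group
      _ = 1 := by rw [hz2]; group
  have hjG : j ∈ G := G.mul_mem (G.mul_mem hg₀ hz) (G.inv_mem hg₀)
  have hja : j a = b := by
    have : g₀⁻¹ a = a := by rw [Perm.inv_eq_iff_eq, hg₀1]
    simp only [hj, Perm.mul_apply, this, hab, hg₀2]
  have hjb : j b = a := by
    have : g₀⁻¹ b = b := by rw [Perm.inv_eq_iff_eq, hg₀2]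
    simp only [hj, Perm.mul_apply, this, hba, hg₀1]
  have hjρ : ∀ x ∈ ρ, j x = x := by
    intro x hx
    have h1 : z (swap p q x) = swap p q x := mem_fx.mp (Finset.mem_of_mem_erase (hsρ x hx))
    simp only [hj, Perm.mul_apply, hinv x hx, h1, hg₀3 _ (hsρ x hx), swap_apply_self]
  set y := z * j with hy
  have hyG : y ∈ G := G.mul_mem hz hjG
  have hyt : ∀ x ∈ t, y x = x := by
    intro x hx
    rw [ht, Finset.mem_insert, Finset.mem_insert] at hx
    rcases hx with rfl | rfl | hx
    · simp only [hy, Perm.mul_apply, hja, hba]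
    · simp only [hy, Perm.mul_apply, hjb, hab]
    · have h1 : z x = x := mem_fx.mp (Finset.mem_of_mem_erase hx)
      simp only [hy, Perm.mul_apply, hjρ x hx, h1]
  have hyodd : Odd (orderOf y) := odd_order_of_fix hI hyG htc.ge hyt
  have hcj := conj_rt hz2 hj2 hyodd
  rw [← hy] at hcj
  set s := rt y with hs
  have hsG : s ∈ G := G.pow_mem hyG _
  have hst : ∀ x ∈ t, s x = x := fun x hx => rt_apply_of_fix (hyt x hx)
  set g := s * g₀ with hg
  have hgG : g ∈ G := G.mul_mem hsG hg₀
  have hgz : g * z = z * g := by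
    have h1 : g * z * g⁻¹ = z := by
      calc g * z * g⁻¹ = s * (g₀ * z * g₀⁻¹) * s⁻¹ := by rw [hg]; group
        _ = z := hcj
    calc g * z = g * z * g⁻¹ * g := by group
      _ = z * g := by rw [h1]
  have hga : g a = a := by
    simp only [hg, Perm.mul_apply, hg₀1]
    exact hst a (by simp [ht])
  have hgb : g b = b := by
    simp only [hg, Perm.mul_apply, hg₀2]
    exact hst b (by simp [ht])
  have hgρ : ∀ x ∈ ρ, g x = swap p q x := by
    intro x hx
    simp only [hg, Perm.mul_apply, hg₀3 x hx]
    exact hst _ (by simp [ht, hsρ x hx])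
  refine ⟨g, hgG, hga, hgb, fun x hx => ?_⟩
  by_cases hxr : x = r
  · subst hxr
    rw [swap_apply_of_ne_of_ne hrp hrq]
    have h1 : g x ∈ fx z := by
      rw [mem_fx]
      have := congrArg (fun f : Perm Ω => f x) hgz
      simp only [Perm.mul_apply, mem_fx.mp hx] at this
      exact this.symm
    by_contra hne
    have h2 : g x ∈ ρ := Finset.mem_erase.mpr ⟨hne, h1⟩
    have h3 := hgρ _ (hsρ _ h2)
    rw [swap_apply_self] at h3
    have h4 := g.injective h3
    have h5 := hsρ _ h2
    rw [h4] at h5
    exact (Finset.mem_erase.mp h5).1 rfl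
  · exact hgρ x (Finset.mem_erase.mpr ⟨hxr, hx⟩)

/-- A transposition of `Δ` realised through an involution. -/
lemma Rs_of_invol {G : Subgroup (Perm Ω)} {k : ℕ} (hk : 4 ≤ k) (hG : TT G k) (hI : NoInv G k)
    {z : Perm Ω} (hz : z ∈ G) (hz2 : z * z = 1) (hFz : (fx z).card + 1 = k) {a b p q : Ω}
    (hab : z a = b) (ha : a ∉ fx z) (hp : p ∈ fx z) (hq : q ∈ fx z) {Δ : Finset Ω}
    (hΔ : ∀ x ∈ Δ, x ∈ fx z ∨ x = a ∨ x = b) : Rs G Δ p q := by
  have hba : z b = a := by rw [← hab, invol_apply hz2]
  have hane : a ≠ b := by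
    rintro rfl
    exact ha (mem_fx.mpr hab)
  have hb : b ∉ fx z := by
    intro h
    rw [mem_fx, hba] at h
    exact hane h
  obtain ⟨r, hr, hr'⟩ : ∃ r ∈ fx z, r ∉ ({p, q} : Finset Ω) := by
    apply Finset.exists_mem_notMem_of_card_lt_card
    have : ({p, q} : Finset Ω).card ≤ 2 := Finset.card_le_two
    omega
  simp only [Finset.mem_insert, Finset.mem_singleton, not_or] at hr'
  obtain ⟨g, hg, h1, h2, h3⟩ := swap_lemma hG hI hz hz2 hFz hab ha hp hq hr hr'.1 hr'.2
  refine ⟨g, hg, fun x hx => ?_⟩
  rcases hΔ x hx with h | rfl | rfl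
  · exact h3 x h
  · rw [h1, swap_apply_of_ne_of_ne]
    · rintro rfl; exact ha hp
    · rintro rfl; exact ha hq
  · rw [h2, swap_apply_of_ne_of_ne]
    · rintro rfl; exact hb hp
    · rintro rfl; exact hb hq

theorem caseA {G : Subgroup (Perm Ω)} {k : ℕ} (hk : 4 ≤ k) (hn : k < Fintype.card Ω)
    (hG : TT G k) (hI : NoInv G k) (hm : Odd (Fintype.card Ω - k)) :
    ∃ Δ : Finset Ω, Δ.card = k + 1 ∧ rz G Δ = ⊤ := by
  obtain ⟨t, -, htc⟩ := Finset.exists_subset_card_eq (s := (Finset.univ : Finset Ω)) (n := k)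
    (by simpa using hn.le)
  obtain ⟨L, a, b, c, d, hLc, haL, hbL, hcL, hdL, hab, hac, had, hbc, hbd, hcd, htm⟩ :=
    exists_config_in t (by omega)
  obtain ⟨c', hm'⟩ := hm
  have ha : a ∈ t := (htm a).mpr (by simp)
  have hb : b ∈ t := (htm b).mpr (by simp)
  have hc : c ∈ t := (htm c).mpr (by simp)
  have hd : d ∈ t := (htm d).mpr (by simp)
  have hsw : ∀ p q : Ω, p ∈ t → q ∈ t → ∀ x ∈ t, swap p q x ∈ t := by
    intro p q hp hq x hx
    rw [swap_apply_def]
    split_ifs <;> assumption
  obtain ⟨u, huG, hu2, hut⟩ := exists_invol_acting hG hI (π := swap c d) htc (swap_mul_self c d)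
    (hsw c d hc hd)
  obtain ⟨z, hzG, hz2, hzu, hzt⟩ := exists_comm_invol hG hI (v := u) (π := swap a b) htc huG hu2
    (fun x hx => by rw [hut x hx]; exact hsw c d hc hd x hx) (swap_mul_self a b)
    (hsw a b ha hb) (fun x hx => by
      rw [hut _ (hsw a b ha hb x hx), hut x hx]
      exact (swap_comm_apply hac had hbc hbd x).symm)
  -- action of `u` on points of `t`
  have hu1 : ∀ x ∈ L, u x = x := fun x hx => by
    rw [hut x ((htm x).mpr (by simp [hx])), swap_apply_of_ne_of_ne]
    · rintro rfl; exact hcL hx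
    · rintro rfl; exact hdL hx
  have hua : u a = a := by rw [hut a ha, swap_apply_of_ne_of_ne hac had]
  have hub : u b = b := by rw [hut b hb, swap_apply_of_ne_of_ne hbc hbd]
  have huc : u c = d := by rw [hut c hc, swap_apply_left]
  have hud : u d = c := by rw [hut d hd, swap_apply_right]
  have hz1 : ∀ x ∈ L, z x = x := fun x hx => by
    rw [hzt x ((htm x).mpr (by simp [hx])), swap_apply_of_ne_of_ne]
    · rintro rfl; exact haL hx
    · rintro rfl; exact hbL hx
  have hzc : z c = c := by rw [hzt c hc, swap_apply_of_ne_of_ne hac.symm hbc.symm]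
  have hzd : z d = d := by rw [hzt d hd, swap_apply_of_ne_of_ne had.symm hbd.symm]
  have hza : z a = b := by rw [hzt a ha, swap_apply_left]
  have hzb : z b = a := by rw [hzt b hb, swap_apply_right]
  -- sizes of fixed-point sets
  have huc' : (fx u).card + 1 = k := by
    have h1 : (insert a (insert b L)).card ≤ (fx u).card := by
      apply Finset.card_le_card
      intro x hx
      simp only [Finset.mem_insert] at hx
      rcases hx with rfl | rfl | hx
      · simpa using hua
      · simpa using hub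
      · simpa using hu1 x hx
    rw [Finset.card_insert_of_notMem (by simp [hab, haL]), Finset.card_insert_of_notMem hbL] at h1
    have h2 : (fx u).card < k := by
      by_contra h3
      have h4 := hI u huG hu2 (by omega)
      rw [h4] at huc
      exact hcd huc
    have h3 := card_fx_modEq hu2
    unfold Nat.ModEq at h3
    omega
  have hzc' : (fx z).card + 1 = k := by
    have h1 : (insert c (insert d L)).card ≤ (fx z).card := by
      apply Finset.card_le_card
      intro x hx
      simp only [Finset.mem_insert] at hx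
      rcases hx with rfl | rfl | hx
      · simpa using hzc
      · simpa using hzd
      · simpa using hz1 x hx
    rw [Finset.card_insert_of_notMem (by simp [hcd, hcL]), Finset.card_insert_of_notMem hdL] at h1
    have h2 : (fx z).card < k := by
      by_contra h3
      have h4 := hI z hzG hz2 (by omega)
      rw [h4] at hza
      exact hab hza
    have h3 := card_fx_modEq hz2
    unfold Nat.ModEq at h3
    omega
  -- the extra point
  set A := insert a (insert b L) with hA
  have hAc : A.card + 2 = k := by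
    rw [hA, Finset.card_insert_of_notMem (by simp [hab, haL]), Finset.card_insert_of_notMem hbL]
    omega
  have hAu : A ⊆ fx u := by
    intro x hx
    simp only [hA, Finset.mem_insert] at hx
    rcases hx with rfl | rfl | hx
    · simpa using hua
    · simpa using hub
    · simpa using hu1 x hx
  obtain ⟨w, hw⟩ : ∃ w, fx u \ A = {w} := by
    apply Finset.card_eq_one.mp
    rw [Finset.card_sdiff_of_subset hAu]
    omega
  have hwF : w ∈ fx u := by
    have : w ∈ fx u \ A := by rw [hw]; simp
    exact (Finset.mem_sdiff.mp this).1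
  have hwA : w ∉ A := by
    have : w ∈ fx u \ A := by rw [hw]; simp
    exact (Finset.mem_sdiff.mp this).2
  have hFu : ∀ x, x ∈ fx u ↔ x = w ∨ x ∈ A := by
    intro x
    constructor
    · intro hx
      by_cases hxA : x ∈ A
      · exact Or.inr hxA
      · left
        have : x ∈ fx u \ A := Finset.mem_sdiff.mpr ⟨hx, hxA⟩
        rw [hw] at this
        simpa using this
    · rintro (rfl | h)
      · exact hwF
      · exact hAu h
  have hwa : w ≠ a := fun h => hwA (by simp [hA, h])
  have hwb : w ≠ b := fun h => hwA (by simp [hA, h])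
  have hwL : w ∉ L := fun h => hwA (by simp [hA, h])
  have hwc : w ≠ c := by
    rintro rfl
    rw [mem_fx, huc] at hwF
    exact hcd hwF.symm
  have hwd : w ≠ d := by
    rintro rfl
    rw [mem_fx, hud] at hwF
    exact hcd hwF
  -- `z` fixes `w`
  have hzw : z w = w := by
    have h1 : z w ∈ fx u := by
      rw [mem_fx]
      have := congrArg (fun f : Perm Ω => f w) hzu
      simp only [Perm.mul_apply, mem_fx.mp hwF] at this
      exact this.symm
    rcases (hFu _).mp h1 with h | h
    · exact h
    · exfalso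
      simp only [hA, Finset.mem_insert] at h
      rcases h with h | h | h
      · have : w = z a := by rw [← h, invol_apply hz2]
        rw [hza] at this
        exact hwb this
      · have : w = z b := by rw [← h, invol_apply hz2]
        rw [hzb] at this
        exact hwa this
      · have : z (z w) = z w := hz1 _ h
        rw [invol_apply hz2] at this
        rw [← this] at h
        exact hwL h
  set B := insert w (insert c (insert d L)) with hB
  have hBz : B ⊆ fx z := by
    intro x hx
    simp only [hB, Finset.mem_insert] at hx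
    rcases hx with rfl | rfl | rfl | hx
    · simpa using hzw
    · simpa using hzc
    · simpa using hzd
    · simpa using hz1 x hx
  have hBc : B.card + 1 = k := by
    rw [hB, Finset.card_insert_of_notMem (by simp [hwc, hwd, hwL]),
      Finset.card_insert_of_notMem (by simp [hcd, hcL]), Finset.card_insert_of_notMem hdL]
    omega
  have hFz : fx z = B := (Finset.eq_of_subset_of_card_le hBz (by omega)).symm
  -- the set
  set Δ := insert w t with hΔ
  have hwt : w ∉ t := by
    intro h
    rcases (htm w).mp h with h | h | h | h | h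
    · exact hwa h
    · exact hwb h
    · exact hwc h
    · exact hwd h
    · exact hwL h
  refine ⟨Δ, by rw [hΔ, Finset.card_insert_of_notMem hwt, htc], ?_⟩
  have hΔm : ∀ x, x ∈ Δ ↔ x = w ∨ x = a ∨ x = b ∨ x = c ∨ x = d ∨ x ∈ L := by
    intro x
    rw [hΔ, Finset.mem_insert, htm]
  have haF : a ∉ fx z := by
    rw [mem_fx, hza]; exact hab.symm
  have hcF : c ∉ fx u := by
    rw [mem_fx, huc]; exact hcd.symm
  have hR₁ : ∀ p ∈ fx z, ∀ q ∈ fx z, Rs G Δ p q := by
    intro p hp q hq
    apply Rs_of_invol hk hG hI hzG hz2 hzc' hza haF hp hq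
    intro x hx
    rw [hFz]
    simp only [hB, Finset.mem_insert]
    rcases (hΔm x).mp hx with h | h | h | h | h | h <;> simp [h]
  have hR₂ : ∀ p ∈ fx u, ∀ q ∈ fx u, Rs G Δ p q := by
    intro p hp q hq
    apply Rs_of_invol hk hG hI huG hu2 huc' huc hcF hp hq
    intro x hx
    rw [hFu]
    simp only [hA, Finset.mem_insert]
    rcases (hΔm x).mp hx with h | h | h | h | h | h <;> simp [h]
  have hwz : w ∈ fx z := hBz (by simp [hB])
  have hΔ1 : ∀ x ∈ Δ, x ∈ fx z ∨ x ∈ fx u := by
    intro x hx
    rcases (hΔm x).mp hx with h | h | h | h | h | h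
    · subst h; exact Or.inl hwz
    · subst h; exact Or.inr (hAu (by simp [hA]))
    · subst h; exact Or.inr (hAu (by simp [hA]))
    · subst h; exact Or.inl (hBz (by simp [hB]))
    · subst h; exact Or.inl (hBz (by simp [hB]))
    · exact Or.inl (hBz (by simp [hB, h]))
  have hwΔ : w ∈ Δ := by simp [hΔ]
  refine rz_eq_top_of_swaps fun p hp q hq hpq => ?_
  by_cases hp1 : p ∈ fx z
  · by_cases hq1 : q ∈ fx z
    · exact hR₁ p hp1 q hq1
    · have hq2 : q ∈ fx u := (hΔ1 q hq).resolve_left hq1
      by_cases hp2 : p ∈ fx u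
      · exact hR₂ p hp2 q hq2
      · have hqw : q ≠ w := by rintro rfl; exact hq1 hwz
        exact Rs.conj hp hq hwΔ hpq hqw (hR₁ p hp1 w hwz) (hR₂ q hq2 w hwF)
  · have hp2 : p ∈ fx u := (hΔ1 p hp).resolve_left hp1
    by_cases hq2 : q ∈ fx u
    · exact hR₂ p hp2 q hq2
    · have hq1 : q ∈ fx z := (hΔ1 q hq).resolve_right hq2
      have hqw : q ≠ w := by rintro rfl; exact hq2 hwF
      exact Rs.conj hp hq hwΔ hpq hqw (hR₂ p hp2 w hwF) (hR₁ q hq1 w hwz)

end Cfsg.Agent.LW
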