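import Cfsg.Agent.Lib.LW.CaseA

/-!
# Livingstone–Wagner: the dihedral trick

If every involution fixes at most `k` points and every `k`-set is exactly the fixed-point set of an
involution, then every transposition of every `(k+1)`-set is realised.
-/

set_option autoImplicit false
set_option linter.unusedSectionVars false
set_option linter.unusedVariables false

namespace Cfsg.Agent.LW

open Equiv Equiv.Perm

variable {Ω : Type*} [Fintype Ω] [DecidableEq Ω]

/-- Two `k`-sets are moved onto one another by `G`. -/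
lemma exists_conj_image {G : Subgroup (Perm Ω)} {k : ℕ} (hG : TT G k) {s t : Finset Ω}
    (hs : s.card = k) (ht : t.card = k) : ∃ g ∈ G, s.image g = t := by
  obtain ⟨σ, hσ⟩ := exists_perm_image (hs.trans ht.symm)
  obtain ⟨g, hg, hgσ⟩ := hG σ s hs.le
  refine ⟨g, hg, ?_⟩
  apply Finset.eq_of_subset_of_card_le
  · intro y hy
    obtain ⟨x, hx, rfl⟩ := Finset.mem_image.mp hy
    rw [hgσ x hx]
    exact (hσ x).mp hx
  · rw [Finset.card_image_of_injective _ g.injective, hs, ht]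

/-- Under `TT`, an involution with exactly `k` fixed points yields one for each `k`-set. -/
lemma exists_invol_fx {G : Subgroup (Perm Ω)} {k : ℕ} (hG : TT G k) {j₀ : Perm Ω} (hj₀ : j₀ ∈ G)
    (hj₀2 : j₀ * j₀ = 1) (hj₀c : (fx j₀).card = k) {t : Finset Ω} (ht : t.card = k) :
    ∃ q ∈ G, q * q = 1 ∧ fx q = t := by
  obtain ⟨g, hg, hgt⟩ := exists_conj_image hG hj₀c ht
  refine ⟨g * j₀ * g⁻¹, G.mul_mem (G.mul_mem hg hj₀) (G.inv_mem hg), ?_, ?_⟩
  · calc g * j₀ * g⁻¹ * (g * j₀ * g⁻¹) = g * (j₀ * j₀) * g⁻¹ := by group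
      _ = 1 := by rw [hj₀2]; group
  · rw [fx_conj, hgt]

/-- The heart of the dihedral trick. -/
theorem core_swap {X : Subgroup (Perm Ω)} {k : ℕ}
    (hHB : ∀ j ∈ X, j * j = 1 → j ≠ 1 → (fx j).card ≤ k)
    (hex : ∀ t : Finset Ω, t.card = k → ∃ q ∈ X, q * q = 1 ∧ fx q = t)
    {τ : Finset Ω} (hτ : τ.card + 1 = k) {p q : Ω} (hp : p ∉ τ) (hq : q ∉ τ) (hpq : p ≠ q) :
    ∃ g ∈ X, g p = q ∧ g q = p ∧ ∀ x ∈ τ, g x = x := by
  obtain ⟨q₁, hq₁, hq₁2, hF₁⟩ := hex (insert p τ) (by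
    rw [Finset.card_insert_of_notMem hp]; exact hτ)
  obtain ⟨q₂, hq₂, hq₂2, hF₂⟩ := hex (insert q τ) (by
    rw [Finset.card_insert_of_notMem hq]; exact hτ)
  have hq₁τ : ∀ x ∈ τ, q₁ x = x := fun x hx => mem_fx.mp (by rw [hF₁]; simp [hx])
  have hq₂τ : ∀ x ∈ τ, q₂ x = x := fun x hx => mem_fx.mp (by rw [hF₂]; simp [hx])
  have hq₁p : q₁ p = p := mem_fx.mp (by rw [hF₁]; simp)
  have hq₂q : q₂ q = q := mem_fx.mp (by rw [hF₂]; simp)
  set c := q₁ * q₂ with hc
  have hcG : c ∈ X := X.mul_mem hq₁ hq₂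
  have hcτ : ∀ x ∈ τ, c x = x := fun x hx => by
    simp only [hc, Perm.mul_apply, hq₂τ x hx, hq₁τ x hx]
  have hq₁i : q₁⁻¹ = q₁ := invol_inv hq₁2
  have hq₂i : q₂⁻¹ = q₂ := invol_inv hq₂2
  have hinv₁ : q₁ * c * q₁⁻¹ = c⁻¹ := by
    rw [hq₁i, hc, mul_inv_rev, hq₁i, hq₂i, ← mul_assoc, hq₁2, one_mul]
  have hinv₂ : q₂ * c * q₂⁻¹ = c⁻¹ := by
    rw [hq₂i, hc, mul_inv_rev, hq₁i, hq₂i, mul_assoc, mul_assoc, hq₂2, mul_one]
  -- `c` has odd order
  have hodd : Odd (orderOf c) := by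
    by_contra hne
    obtain ⟨e, hz2, hz1⟩ := even_order_invol hne
    set z := c ^ e with hz
    have hzG : z ∈ X := X.pow_mem hcG e
    have hzi : z⁻¹ = z := invol_inv hz2
    have hcm₁ : q₁ * z = z * q₁ := by
      have h1 := inv_conj_pow hinv₁ e
      rw [← hz, hzi] at h1
      calc q₁ * z = q₁ * z * q₁⁻¹ * q₁ := by group
        _ = z * q₁ := by rw [h1]
    have hcm₂ : q₂ * z = z * q₂ := by
      have h1 := inv_conj_pow hinv₂ e
      rw [← hz, hzi] at h1
      calc q₂ * z = q₂ * z * q₂⁻¹ * q₂ := by group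
        _ = z * q₂ := by rw [h1]
    have hzτ : ∀ x ∈ τ, z x = x := fun x hx => pow_apply_eq_self_of_apply_eq_self (hcτ x hx) e
    have key : ∀ (r : Perm Ω) (w : Ω), r * z = z * r → fx r = insert w τ → w ∉ τ → z w = w := by
      intro r w hr hF hw
      have h1 : z w ∈ fx r := by
        rw [mem_fx]
        have h2 : r w = w := mem_fx.mp (by rw [hF]; simp)
        have := congrArg (fun f : Perm Ω => f w) hr
        simp only [Perm.mul_apply, h2] at this
        exact this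
      rw [hF, Finset.mem_insert] at h1
      rcases h1 with h1 | h1
      · exact h1
      · exfalso
        have h3 := hzτ _ h1
        have h4 := z.injective h3
        rw [h4] at h1
        exact hw h1
    have hzp : z p = p := key q₁ p hcm₁ hF₁ hp
    have hzq : z q = q := key q₂ q hcm₂ hF₂ hq
    have hcard : (insert p (insert q τ)).card ≤ (fx z).card := by
      apply Finset.card_le_card
      intro x hx
      simp only [Finset.mem_insert] at hx
      rcases hx with rfl | rfl | hx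
      · simpa using hzp
      · simpa using hzq
      · simpa using hzτ x hx
    rw [Finset.card_insert_of_notMem (by simp [hpq, hp]), Finset.card_insert_of_notMem hq] at hcard
    have := hHB z hzG hz2 hz1
    omega
  obtain ⟨M, hM⟩ := hodd
  have hcN : c ^ (2 * M + 1) = 1 := by rw [← hM, pow_orderOf_eq_one]
  -- the fixed point of `q₂` in the `c`-orbit of `p`
  have hq₂p : q₂ p = c⁻¹ p := by
    have h1 : q₂ = q₁ * c := by
      rw [hc, ← mul_assoc, hq₁2, one_mul]
    have h2 : q₁ * c = c⁻¹ * q₁ := by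
      calc q₁ * c = q₁ * c * q₁⁻¹ * q₁ := by group
        _ = c⁻¹ * q₁ := by rw [hinv₁]
    rw [h1, h2, Perm.mul_apply, hq₁p]
  have hw : (c ^ M) p = q := by
    have h1 : q₂ ((c ^ M) p) = (c ^ M) p := by
      have h2 := inv_conj_pow hinv₂ M
      have h3 : q₂ * c ^ M = (c ^ M)⁻¹ * q₂ := by
        calc q₂ * c ^ M = q₂ * c ^ M * q₂⁻¹ * q₂ := by group
          _ = (c ^ M)⁻¹ * q₂ := by rw [h2]
      have h4 := congrArg (fun f : Perm Ω => f p) h3
      simp only [Perm.mul_apply] at h4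
      rw [h4, hq₂p, ← Perm.mul_apply]
      have h5 : (c ^ M)⁻¹ * c⁻¹ = c ^ M := by
        rw [inv_mul_eq_iff_eq_mul]
        apply inv_eq_of_mul_eq_one_right
        rw [← pow_add, ← pow_succ']
        have : M + M + 1 = 2 * M + 1 := by ring
        rw [this, hcN]
      rw [h5]
    have h6 : (c ^ M) p ∈ fx q₂ := mem_fx.mpr h1
    rw [hF₂, Finset.mem_insert] at h6
    rcases h6 with h6 | h6
    · exact h6
    · exfalso
      have h7 := pow_apply_eq_self_of_apply_eq_self (hcτ _ h6) M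
      have h8 := (c ^ M).injective h7
      rw [h8] at h6
      exact hp h6
  -- the square root of `c ^ M`
  set r := c ^ (M * (M + 1)) with hr
  have hrr : r * r = c ^ M := by
    rw [hr, ← pow_add]
    have : M * (M + 1) + M * (M + 1) = (2 * M + 1) * M + M := by ring
    rw [this, pow_add, pow_mul, hcN, one_pow, one_mul]
  have hrG : r ∈ X := X.pow_mem hcG _
  have hrτ : ∀ x ∈ τ, r x = x := fun x hx => pow_apply_eq_self_of_apply_eq_self (hcτ x hx) _
  have hrinv : q₁ * r * q₁⁻¹ = r⁻¹ := inv_conj_pow hinv₁ _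
  have hq₁r : q₁ * r⁻¹ = r * q₁ := by
    have h1 : q₁ * r⁻¹ * q₁⁻¹ = r := by
      have : q₁ * r⁻¹ * q₁⁻¹ = (q₁ * r * q₁⁻¹)⁻¹ := by group
      rw [this, hrinv, inv_inv]
    calc q₁ * r⁻¹ = q₁ * r⁻¹ * q₁⁻¹ * q₁ := by group
      _ = r * q₁ := by rw [h1]
  set g := r * q₁ * r⁻¹ with hg
  have hg2 : g * g = 1 := by
    calc g * g = r * (q₁ * q₁) * r⁻¹ := by rw [hg]; group
      _ = 1 := by rw [hq₁2]; group
  have hgp : g p = q := by
    have h1 : g = r * r * q₁ := by
      rw [hg, mul_assoc, hq₁r, mul_assoc]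
    rw [h1, Perm.mul_apply, hq₁p, hrr, hw]
  refine ⟨g, X.mul_mem (X.mul_mem hrG hq₁) (X.inv_mem hrG), hgp, ?_, fun x hx => ?_⟩
  · rw [← hgp, invol_apply hg2]
  · have h1 : r⁻¹ x = x := by rw [Perm.inv_eq_iff_eq, hrτ x hx]
    simp only [hg, Perm.mul_apply, h1, hq₁τ x hx, hrτ x hx]

/-- The dihedral trick: all transpositions of all `(k+1)`-sets are realised. -/
theorem caseC {X : Subgroup (Perm Ω)} {k : ℕ}
    (hHB : ∀ j ∈ X, j * j = 1 → j ≠ 1 → (fx j).card ≤ k)
    (hex : ∀ t : Finset Ω, t.card = k → ∃ q ∈ X, q * q = 1 ∧ fx q = t)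
    {Δ : Finset Ω} (hΔ : Δ.card = k + 1) : rz X Δ = ⊤ := by
  refine rz_eq_top_of_swaps fun p hp q hq hpq => ?_
  set τ := (Δ.erase p).erase q with hτ
  have hqe : q ∈ Δ.erase p := Finset.mem_erase.mpr ⟨hpq.symm, hq⟩
  have hτc : τ.card + 1 = k := by
    rw [hτ, Finset.card_erase_of_mem hqe, Finset.card_erase_of_mem hp]
    have : 0 < (Δ.erase p).card := Finset.card_pos.mpr ⟨q, hqe⟩
    rw [Finset.card_erase_of_mem hp] at this
    omega
  have hpτ : p ∉ τ := by simp [hτ]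
  have hqτ : q ∉ τ := by simp [hτ]
  obtain ⟨g, hg, h1, h2, h3⟩ := core_swap hHB hex hτc hpτ hqτ hpq
  refine ⟨g, hg, fun x hx => ?_⟩
  by_cases hxp : x = p
  · subst hxp; rw [h1, swap_apply_left]
  by_cases hxq : x = q
  · subst hxq; rw [h2, swap_apply_right]
  rw [swap_apply_of_ne_of_ne hxp hxq]
  exact h3 x (by simp [hτ, hxp, hxq, hx])

end Cfsg.Agent.LW
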