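import Cfsg.Agent.Lib.LW.Reduce
import Cfsg.Agent.S0215
import Cfsg.Agent.Lib.Basic.SylowUtil

/-!
# Livingstone–Wagner, Theorem E, part 1

`X` is 4-transitive on a set of even size and no involution fixes 4 points.
-/

set_option autoImplicit false
set_option linter.unusedSectionVars false
set_option linter.unusedVariables false

namespace Cfsg.Agent.LW

open Equiv Equiv.Perm

variable {Ω : Type*} [Fintype Ω] [DecidableEq Ω]

open Classical in
/-- The orbit of `x` under `H`, as a finset. -/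
noncomputable def orb (H : Subgroup (Perm Ω)) (x : Ω) : Finset Ω :=
  Finset.univ.filter fun y => ∃ h ∈ H, h x = y

lemma mem_orb {H : Subgroup (Perm Ω)} {x y : Ω} : y ∈ orb H x ↔ ∃ h ∈ H, h x = y := by
  simp [orb]

/-- Orbit-stabiliser. -/
lemma card_eq_orb_mul (H : Subgroup (Perm Ω)) (x : Ω) :
    Nat.card H = (orb H x).card * Nat.card (ptS H {x}) := by
  have h1 := (MulAction.stabilizer ↥H x).card_mul_index
  rw [MulAction.index_stabilizer] at h1
  have h2 : MulAction.orbit ↥H x = ((orb H x : Finset Ω) : Set Ω) := by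
    ext y
    simp only [MulAction.mem_orbit_iff, Finset.mem_coe, mem_orb]
    constructor
    · rintro ⟨g, rfl⟩
      exact ⟨g, g.2, rfl⟩
    · rintro ⟨h, hh, rfl⟩
      exact ⟨⟨h, hh⟩, rfl⟩
  rw [h2, Set.ncard_coe_finset] at h1
  have h3 : (MulAction.stabilizer ↥H x).map H.subtype = ptS H {x} := by
    ext g
    simp only [Subgroup.mem_map, MulAction.mem_stabilizer_iff, mem_ptS, Finset.mem_singleton,
      forall_eq]
    constructor
    · rintro ⟨h, hh, rfl⟩
      exact ⟨h.2, hh⟩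
    · rintro ⟨h1, h2⟩
      exact ⟨⟨g, h1⟩, h2, rfl⟩
  have h4 : Nat.card (ptS H {x}) = Nat.card (MulAction.stabilizer ↥H x) := by
    rw [← h3]
    exact (Nat.card_congr ((MulAction.stabilizer ↥H x).equivMapOfInjective _
      H.subtype_injective).toEquiv).symm
  rw [h4, ← h1, mul_comm]

lemma ptS_ptS_insert (G : Subgroup (Perm Ω)) (s : Finset Ω) (x : Ω) :
    ptS (ptS G s) {x} = ptS G (insert x s) := by
  ext g
  simp only [mem_ptS, Finset.mem_singleton, forall_eq, Finset.mem_insert, forall_eq_or_imp]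
  tauto

lemma card_ptS_insert {G : Subgroup (Perm Ω)} {k : ℕ} (hG : TT G k) {s : Finset Ω} {x : Ω}
    (hx : x ∉ s) (hs : s.card < k) :
    Nat.card (ptS G s) = (Fintype.card Ω - s.card) * Nat.card (ptS G (insert x s)) := by
  have h1 := card_eq_orb_mul (ptS G s) x
  rw [ptS_ptS_insert] at h1
  have h2 : orb (ptS G s) x = sᶜ := by
    ext y
    rw [mem_orb, Finset.mem_compl]
    constructor
    · rintro ⟨h, hh, rfl⟩ hy
      have := hh.2 _ hy
      have h3 := h.injective this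
      exact hx (h3 ▸ hy)
    · intro hy
      obtain ⟨g, hg, hgσ⟩ := hG (swap x y) (insert x s) (by
        rw [Finset.card_insert_of_notMem hx]; omega)
      refine ⟨g, ⟨hg, fun z hz => ?_⟩, ?_⟩
      · rw [hgσ z (Finset.mem_insert_of_mem hz), swap_apply_of_ne_of_ne]
        · rintro rfl; exact hx hz
        · rintro rfl; exact hy hz
      · rw [hgσ x (Finset.mem_insert_self x s), swap_apply_left]
  rw [h1, h2, Finset.card_compl]

/-- Hypotheses of Theorem E. -/
structure EH (X : Subgroup (Perm Ω)) : Prop where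
  T : TT X 4
  I : NoInv X 4
  ev : Even (Fintype.card Ω)

lemma three_le_of {s : Finset Ω} {a b c : Ω} (ha : a ∈ s) (hb : b ∈ s) (hc : c ∈ s) (hab : a ≠ b)
    (hac : a ≠ c) (hbc : b ≠ c) : 3 ≤ s.card :=
  Finset.two_lt_card.mpr ⟨a, ha, b, hb, c, hc, hab, hac, hbc⟩

namespace EH

variable {X : Subgroup (Perm Ω)}

lemma fxle (h : EH X) {j : Perm Ω} (hj : j ∈ X) (h2 : j * j = 1) (h1 : j ≠ 1) : (fx j).card ≤ 2 := by
  have h3 : (fx j).card < 4 := by
    by_contra h4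
    exact h1 (h.I j hj h2 (by omega))
  have h5 := card_fx_modEq h2
  obtain ⟨c, hc⟩ := h.ev
  unfold Nat.ModEq at h5
  omega

/-- A 2-element fixing three points is trivial. -/
lemma two_elt_fix3 (h : EH X) {e : Perm Ω} (he : e ∈ X) {f : ℕ} (h2 : e ^ (2 ^ f) = 1) {p q r : Ω}
    (hp : e p = p) (hq : e q = q) (hr : e r = r) (hpq : p ≠ q) (hpr : p ≠ r) (hqr : q ≠ r) :
    e = 1 := by
  by_contra h1
  obtain ⟨i, hi, hi'⟩ := exists_invol_pow h2 h1
  have h3 := h.fxle (X.pow_mem he i) hi hi'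
  have h4 : 3 ≤ (fx (e ^ i)).card :=
    three_le_of (fx_subset_pow e i (mem_fx.mpr hp)) (fx_subset_pow e i (mem_fx.mpr hq))
      (fx_subset_pow e i (mem_fx.mpr hr)) hpq hpr hqr
  omega

lemma invol_fix3 (h : EH X) {e : Perm Ω} (he : e ∈ X) (h2 : e * e = 1) {p q r : Ω}
    (hp : e p = p) (hq : e q = q) (hr : e r = r) (hpq : p ≠ q) (hpr : p ≠ r) (hqr : q ≠ r) :
    e = 1 :=
  h.two_elt_fix3 he (f := 1) (by rw [pow_one, pow_two, h2]) hp hq hr hpq hpr hqr

/-- Elements fixing three points have odd order. -/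
lemma odd3 (h : EH X) {g : Perm Ω} (hg : g ∈ X) {p q r : Ω} (hp : g p = p) (hq : g q = q)
    (hr : g r = r) (hpq : p ≠ q) (hpr : p ≠ r) (hqr : q ≠ r) : Odd (orderOf g) := by
  by_contra h1
  obtain ⟨c, hc, hc'⟩ := even_order_invol h1
  exact hc' (h.invol_fix3 (X.pow_mem hg c) hc (pow_apply_eq_self_of_apply_eq_self hp c)
    (pow_apply_eq_self_of_apply_eq_self hq c) (pow_apply_eq_self_of_apply_eq_self hr c)
    hpq hpr hqr)

/-- Moving four points. -/
lemma move4 (h : EH X) {x₁ x₂ x₃ x₄ y₁ y₂ y₃ y₄ : Ω} (h12 : x₁ ≠ x₂) (h13 : x₁ ≠ x₃) (h14 : x₁ ≠ x₄)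
    (h23 : x₂ ≠ x₃) (h24 : x₂ ≠ x₄) (h34 : x₃ ≠ x₄) (k12 : y₁ ≠ y₂) (k13 : y₁ ≠ y₃) (k14 : y₁ ≠ y₄)
    (k23 : y₂ ≠ y₃) (k24 : y₂ ≠ y₄) (k34 : y₃ ≠ y₄) :
    ∃ g ∈ X, g x₁ = y₁ ∧ g x₂ = y₂ ∧ g x₃ = y₃ ∧ g x₄ = y₄ := by
  have inj : ∀ {z₁ z₂ z₃ z₄ : Ω}, z₁ ≠ z₂ → z₁ ≠ z₃ → z₁ ≠ z₄ → z₂ ≠ z₃ → z₂ ≠ z₄ → z₃ ≠ z₄ →
      Function.Injective ![z₁, z₂, z₃, z₄] := by
    intro z₁ z₂ z₃ z₄ a1 a2 a3 a4 a5 a6 i j hij
    fin_cases i <;> fin_cases j <;> simp_all [eq_comm]
  obtain ⟨σ, hσ⟩ := Equiv.Perm.exists_extending_pair (⟨![x₁, x₂, x₃, x₄], inj h12 h13 h14 h23 h24 h34⟩ : Fin 4 ↪ Ω)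
    (⟨![y₁, y₂, y₃, y₄], inj k12 k13 k14 k23 k24 k34⟩ : Fin 4 ↪ Ω)
    (inj h12 h13 h14 h23 h24 h34) (inj k12 k13 k14 k23 k24 k34)
  obtain ⟨g, hg, hgσ⟩ := h.T σ {x₁, x₂, x₃, x₄} Finset.card_le_four
  refine ⟨g, hg, ?_, ?_, ?_, ?_⟩
  · rw [hgσ _ (by simp)]; exact hσ 0
  · rw [hgσ _ (by simp)]; exact hσ 1
  · rw [hgσ _ (by simp)]; exact hσ 2
  · rw [hgσ _ (by simp)]; exact hσ 3

/-- Data: `v` an involution fixing exactly `a, b`. -/
structure VI (X : Subgroup (Perm Ω)) (v : Perm Ω) (a b : Ω) : Prop where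
  mem : v ∈ X
  sq : v * v = 1
  ne : v ≠ 1
  hab : a ≠ b
  va : v a = a
  vb : v b = b

lemma VI.sep (h : EH X) {v : Perm Ω} {a b : Ω} (hv : VI X v a b) {y : Ω} (hya : y ≠ a) (hyb : y ≠ b) :
    v y ≠ y := fun hy =>
  hv.ne (h.invol_fix3 hv.mem hv.sq hv.va hv.vb hy hv.hab hya.symm hyb.symm)

lemma VI.app {v : Perm Ω} {a b : Ω} (hv : VI X v a b) (y : Ω) : v (v y) = y := invol_apply hv.sq y

lemma VI.ne_a {v : Perm Ω} {a b : Ω} (hv : VI X v a b) {y : Ω} (hya : y ≠ a) : v y ≠ a := fun h => hya (by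
  have := congrArg v h
  rwa [hv.app, hv.va] at this)

lemma VI.ne_b {v : Perm Ω} {a b : Ω} (hv : VI X v a b) {y : Ω} (hyb : y ≠ b) : v y ≠ b := fun h => hyb (by
  have := congrArg v h
  rwa [hv.app, hv.vb] at this)

/-- Fixed points of an element commuting with `v` are permuted by `v`. -/
lemma fx_comm {u v : Perm Ω} (hc : u * v = v * u) {y : Ω} (hy : u y = y) : u (v y) = v y := by
  have := congrArg (fun f : Perm Ω => f y) hc
  simp only [Perm.mul_apply, hy] at this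
  exact this

/-- (F5) The centraliser of `v` in the stabiliser of `a, b` is transitive off `a, b`. -/
lemma E_trans (h : EH X) {v : Perm Ω} {a b c c' : Ω} (hv : VI X v a b) (hca : c ≠ a) (hcb : c ≠ b)
    (hc'a : c' ≠ a) (hc'b : c' ≠ b) : ∃ g ∈ X, g a = a ∧ g b = b ∧ g * v = v * g ∧ g c = c' := by
  have h1 := hv.sep h hca hcb
  have h2 := hv.sep h hc'a hc'b
  obtain ⟨g₀, hg₀, g1, g2, g3, g4⟩ := h.move4 (x₁ := a) (x₂ := b) (x₃ := c) (x₄ := v c) (y₁ := a)
    (y₂ := b) (y₃ := c') (y₄ := v c') hv.hab hca.symm (hv.ne_a hca).symm hcb.symm (hv.ne_b hcb).symm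
    h1.symm hv.hab hc'a.symm (hv.ne_a hc'a).symm hc'b.symm (hv.ne_b hc'b).symm h2.symm
  set j := g₀ * v * g₀⁻¹ with hj
  have hj2 : j * j = 1 := by
    calc j * j = g₀ * (v * v) * g₀⁻¹ := by rw [hj]; group
      _ = 1 := by rw [hv.sq]; group
  have hjG : j ∈ X := X.mul_mem (X.mul_mem hg₀ hv.mem) (X.inv_mem hg₀)
  have i1 : g₀⁻¹ a = a := by rw [Perm.inv_eq_iff_eq, g1]
  have i2 : g₀⁻¹ b = b := by rw [Perm.inv_eq_iff_eq, g2]
  have i3 : g₀⁻¹ c' = c := by rw [Perm.inv_eq_iff_eq, g3]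
  have i4 : g₀⁻¹ (v c') = v c := by rw [Perm.inv_eq_iff_eq, g4]
  have ja : j a = a := by simp only [hj, Perm.mul_apply, i1, hv.va, g1]
  have jb : j b = b := by simp only [hj, Perm.mul_apply, i2, hv.vb, g2]
  have jc : j c' = v c' := by simp only [hj, Perm.mul_apply, i3, g4]
  have jd : j (v c') = c' := by simp only [hj, Perm.mul_apply, i4, hv.app, g3]
  set y := v * j with hy
  have hyG : y ∈ X := X.mul_mem hv.mem hjG
  have ya : y a = a := by simp only [hy, Perm.mul_apply, ja, hv.va]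
  have yb : y b = b := by simp only [hy, Perm.mul_apply, jb, hv.vb]
  have yc : y c' = c' := by simp only [hy, Perm.mul_apply, jc, hv.app]
  have yodd := h.odd3 hyG ya yb yc hv.hab hc'a.symm hc'b.symm
  have hcj := conj_rt hv.sq hj2 yodd
  rw [← hy] at hcj
  set s := rt y with hs
  have hsG : s ∈ X := X.pow_mem hyG _
  refine ⟨s * g₀, X.mul_mem hsG hg₀, ?_, ?_, ?_, ?_⟩
  · simp only [Perm.mul_apply, g1]; exact rt_apply_of_fix ya
  · simp only [Perm.mul_apply, g2]; exact rt_apply_of_fix yb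
  · have h3 : (s * g₀) * v * (s * g₀)⁻¹ = v := by
      calc (s * g₀) * v * (s * g₀)⁻¹ = s * (g₀ * v * g₀⁻¹) * s⁻¹ := by group
        _ = v := hcj
    calc (s * g₀) * v = (s * g₀) * v * (s * g₀)⁻¹ * (s * g₀) := by group
      _ = v * (s * g₀) := by rw [h3]
  · simp only [Perm.mul_apply, g3]; exact rt_apply_of_fix yc

/-- (F2) A commuting involution fixing one 2-cycle of `v` and swapping another. -/
lemma comm_swap (h : EH X) {v : Perm Ω} {c e : Ω} (hv : v ∈ X) (hv2 : v * v = 1) (h1 : c ≠ v c)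
    (h2 : c ≠ e) (h3 : c ≠ v e) (h4 : v c ≠ e) (h5 : v c ≠ v e) (h6 : e ≠ v e) :
    ∃ u ∈ X, u * u = 1 ∧ u * v = v * u ∧ u c = c ∧ u (v c) = v c ∧ u e = v e ∧ u (v e) = e := by
  have hc4 : ({c, v c, e, v e} : Finset Ω).card = 4 := by
    rw [Finset.card_insert_of_notMem (by simp [h1, h2, h3]),
      Finset.card_insert_of_notMem (by simp [h4, h5]),
      Finset.card_insert_of_notMem (by simp [h6]), Finset.card_singleton]
  have happ : ∀ y, v (v y) = y := invol_apply hv2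
  obtain ⟨u, hu, hu2, huv, hact⟩ := exists_comm_invol h.T h.I (π := swap e (v e)) (v := v) hc4 hv hv2
    (by
      intro x hx
      simp only [Finset.mem_insert, Finset.mem_singleton] at hx ⊢
      rcases hx with rfl | rfl | rfl | rfl
      · simp
      · simp [happ]
      · simp
      · simp [happ])
    (swap_mul_self _ _)
    (by
      intro x hx
      simp only [Finset.mem_insert, Finset.mem_singleton] at hx ⊢
      rcases hx with rfl | rfl | rfl | rfl
      · rw [swap_apply_of_ne_of_ne h2 h3]; simp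
      · rw [swap_apply_of_ne_of_ne h4 h5]; simp
      · rw [swap_apply_left]; simp
      · rw [swap_apply_right]; simp)
    (by
      intro x hx
      simp only [Finset.mem_insert, Finset.mem_singleton] at hx
      rcases hx with rfl | rfl | rfl | rfl
      · rw [swap_apply_of_ne_of_ne h2 h3, swap_apply_of_ne_of_ne h4 h5]
      · rw [swap_apply_of_ne_of_ne h4 h5, happ, swap_apply_of_ne_of_ne h2 h3]
      · rw [swap_apply_left, happ, swap_apply_right]
      · rw [swap_apply_right, happ, swap_apply_left])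
  refine ⟨u, hu, hu2, huv, ?_, ?_, ?_, ?_⟩
  · rw [hact _ (by simp), swap_apply_of_ne_of_ne h2 h3]
  · rw [hact _ (by simp), swap_apply_of_ne_of_ne h4 h5]
  · rw [hact _ (by simp), swap_apply_left]
  · rw [hact _ (by simp), swap_apply_right]

/-- (F4) The stabiliser of a 2-cycle of `v` in the centraliser is transitive on the other
2-cycles. -/
lemma E_pairs (h : EH X) {v : Perm Ω} {a b c e e' : Ω} (hv : VI X v a b) (hca : c ≠ a) (hcb : c ≠ b)
    (hea : e ≠ a) (heb : e ≠ b) (he'a : e' ≠ a) (he'b : e' ≠ b) (hec : e ≠ c) (hevc : e ≠ v c)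
    (he'c : e' ≠ c) (he'vc : e' ≠ v c) :
    ∃ g ∈ X, g a = a ∧ g b = b ∧ g c = c ∧ g * v = v * g ∧ (g e' = e ∨ g e' = v e) := by
  have happ := hv.app
  have hvinj : ∀ {p q : Ω}, p ≠ q → v p ≠ v q := fun hpq hvpq => hpq (v.injective hvpq)
  have s1 := hv.sep h hca hcb
  have s2 := hv.sep h hea heb
  have s3 := hv.sep h he'a he'b
  -- the helper involutions
  have key : ∀ w : Ω, w ≠ a → w ≠ b → w ≠ c → w ≠ v c → ∃ u ∈ X, u * u = 1 ∧ u * v = v * u ∧
      u w = w ∧ u (v w) = v w ∧ u c = v c ∧ u (v c) = c ∧ u a = b ∧ u b = a := by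
    intro w wa wb wc wvc
    have s4 := hv.sep h wa wb
    have e1 : v w ≠ c := fun hh => wvc (by rw [← hh, happ])
    have e2 : v w ≠ v c := hvinj wc
    obtain ⟨u, hu, hu2, huv, u1, u2, u3, u4⟩ := h.comm_swap (c := w) (e := c) hv.mem hv.sq s4.symm wc
      wvc e1 e2 s1.symm
    refine ⟨u, hu, hu2, huv, u1, u2, u3, u4, ?_⟩
    have h5 : u a ≠ a := by
      intro hh
      have : u = 1 := h.invol_fix3 hu hu2 hh u1 u2 wa.symm (hv.ne_a wa).symm s4.symm
      rw [this] at u3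
      exact s1 u3.symm
    have h6 : v (u a) = u a := by
      have := fx_comm (u := v) (v := u) huv.symm hv.va
      exact this
    have h7 : u a = b := by
      by_contra hne
      exact hv.sep h h5 hne h6
    exact ⟨h7, by rw [← h7, invol_apply hu2]⟩
  obtain ⟨u', hu', hu'2, hu'v, u1', u2', u3', u4', u5', u6'⟩ := key e hea heb hec hevc
  obtain ⟨u'', hu'', hu''2, hu''v, u1'', u2'', u3'', u4'', u5'', u6''⟩ := key e' he'a he'b he'c he'vc
  set y := u' * u'' with hy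
  have hyG : y ∈ X := X.mul_mem hu' hu''
  have ya : y a = a := by simp only [hy, Perm.mul_apply, u5'', u6']
  have yb : y b = b := by simp only [hy, Perm.mul_apply, u6'', u5']
  have yc : y c = c := by simp only [hy, Perm.mul_apply, u3'', u4']
  have yd : y (v c) = v c := by simp only [hy, Perm.mul_apply, u4'', u3']
  have yodd := h.odd3 hyG ya yb yc hv.hab hca.symm hcb.symm
  have hcj := conj_rt hu'2 hu''2 yodd
  rw [← hy] at hcj
  set s := rt y with hs
  have hsG : s ∈ X := X.pow_mem hyG _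
  have sa : s a = a := rt_apply_of_fix ya
  have sb : s b = b := rt_apply_of_fix yb
  have sc : s c = c := rt_apply_of_fix yc
  have sd : s (v c) = v c := rt_apply_of_fix yd
  have sa' : s⁻¹ a = a := rt_inv_apply_of_fix ya
  have sb' : s⁻¹ b = b := rt_inv_apply_of_fix yb
  have sc' : s⁻¹ c = c := rt_inv_apply_of_fix yc
  have sd' : s⁻¹ (v c) = v c := rt_inv_apply_of_fix yd
  -- `s` carries the fixed points of `u''` to those of `u'`
  have hsF : ∀ p, u'' p = p → u' (s p) = s p := by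
    intro p hp
    have := congrArg (fun f : Perm Ω => f (s p)) hcj
    simp only [Perm.mul_apply] at this
    rw [← this]
    simp [hp]
  have hsF' : ∀ p, u' p = p → u'' (s⁻¹ p) = s⁻¹ p := by
    intro p hp
    have h1 : u'' = s⁻¹ * u' * s := by rw [← hcj]; group
    rw [h1]
    simp [hp]
  set c₀ := s⁻¹ * (v * s * v) with hc₀
  have hc₀G : c₀ ∈ X := X.mul_mem (X.inv_mem hsG) (X.mul_mem (X.mul_mem hv.mem hsG) hv.mem)
  have c₀a : c₀ a = a := by simp only [hc₀, Perm.mul_apply, hv.va, sa, sa']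
  have c₀b : c₀ b = b := by simp only [hc₀, Perm.mul_apply, hv.vb, sb, sb']
  have c₀c : c₀ c = c := by simp only [hc₀, Perm.mul_apply, sd, happ, sc']
  have c₀odd := h.odd3 hc₀G c₀a c₀b c₀c hv.hab hca.symm hcb.symm
  have hvi : v⁻¹ = v := invol_inv hv.sq
  have hinv : v * c₀ * v⁻¹ = c₀⁻¹ := by
    rw [hvi, hc₀]
    simp only [mul_inv_rev, inv_inv, hvi]
    calc v * (s⁻¹ * (v * s * v)) * v = v * s⁻¹ * v * s * (v * v) := by group
      _ = v * (s⁻¹ * (v * s)) := by rw [hv.sq]; group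
  set r := rt c₀ with hr
  have hrr : r * r = c₀ := rt_mul_self c₀odd
  have hrinv : v * r * v⁻¹ = r⁻¹ := inv_conj_rt hinv
  have hrG : r ∈ X := X.pow_mem hc₀G _
  -- `c₀` stabilises the fixed points of `u''`
  have hc₀st : c₀ ∈ stS (fx u'') := by
    apply stS_of_maps
    intro p hp
    rw [mem_fx] at hp ⊢
    have h1 : u'' (v p) = v p := fx_comm hu''v hp
    have h2 : u' (s (v p)) = s (v p) := hsF _ h1
    have h3 : u' (v (s (v p))) = v (s (v p)) := fx_comm hu'v h2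
    have h4 := hsF' _ h3
    simpa only [hc₀, Perm.mul_apply] using h4
  have hrst : r ∈ stS (fx u'') := (stS (fx u'')).pow_mem hc₀st _
  set g := s * r with hg
  refine ⟨g, X.mul_mem hsG hrG, ?_, ?_, ?_, ?_, ?_⟩
  · simp only [hg, Perm.mul_apply]
    rw [show r a = a from rt_apply_of_fix c₀a, sa]
  · simp only [hg, Perm.mul_apply]
    rw [show r b = b from rt_apply_of_fix c₀b, sb]
  · simp only [hg, Perm.mul_apply]
    rw [show r c = c from rt_apply_of_fix c₀c, sc]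
  · have h1 : v * s * v = s * c₀ := by rw [hc₀]; group
    have h2 : v * g * v = g := by
      calc v * g * v = (v * s * v) * (v * r * v⁻¹) := by
            rw [hg, hvi]
            calc v * (s * r) * v = v * s * (v * v) * r * v := by rw [hv.sq]; group
              _ = v * s * v * (v * r * v) := by group
        _ = s * (r * r) * r⁻¹ := by rw [h1, hrinv, hrr]
        _ = g := by rw [hg]; group
    calc g * v = v * g * v * v := by rw [h2]
      _ = v * g * (v * v) := by group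
      _ = v * g := by rw [hv.sq, mul_one]
  · have h1 : r e' ∈ fx u'' := (hrst e').mpr (mem_fx.mpr u1'')
    have h2 : u' (s (r e')) = s (r e') := hsF _ (mem_fx.mp h1)
    simp only [hg, Perm.mul_apply]
    by_contra hcon
    push Not at hcon
    have : u' = 1 := h.invol_fix3 hu' hu'2 h2 u1' u2' hcon.1 hcon.2 s2.symm
    rw [this] at u3'
    exact s1 u3'.symm

/-- The centraliser acts 2-transitively on the 2-cycles. -/
lemma E_two (h : EH X) {v : Perm Ω} {a b x₁ x₂ x₃ x₄ : Ω} (hv : VI X v a b) (h1a : x₁ ≠ a) (h1b : x₁ ≠ b)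
    (h2a : x₂ ≠ a) (h2b : x₂ ≠ b) (h3a : x₃ ≠ a) (h3b : x₃ ≠ b) (h4a : x₄ ≠ a) (h4b : x₄ ≠ b)
    (h21 : x₂ ≠ x₁) (h21' : x₂ ≠ v x₁) (h43 : x₄ ≠ x₃) (h43' : x₄ ≠ v x₃) :
    ∃ f ∈ X, f a = a ∧ f b = b ∧ f * v = v * f ∧ f x₁ = x₃ ∧ (f x₂ = x₄ ∨ f x₂ = v x₄) := by
  obtain ⟨f₁, hf₁, f1a, f1b, f1v, f1x⟩ := h.E_trans hv h1a h1b h3a h3b
  have e1 : f₁ x₂ ≠ a := fun hh => h2a (f₁.injective (hh.trans f1a.symm))
  have e2 : f₁ x₂ ≠ b := fun hh => h2b (f₁.injective (hh.trans f1b.symm))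
  have e3 : f₁ x₂ ≠ x₃ := fun hh => h21 (f₁.injective (hh.trans f1x.symm))
  have e4 : f₁ x₂ ≠ v x₃ := by
    intro hh
    apply h21'
    apply f₁.injective
    have := congrArg (fun f : Perm Ω => f x₁) f1v
    simp only [Perm.mul_apply, f1x] at this
    rw [hh, this]
  obtain ⟨g, hg, ga, gb, gc, gv, gx⟩ := h.E_pairs hv h3a h3b h4a h4b e1 e2 h43 h43' e3 e4
  refine ⟨g * f₁, X.mul_mem hg hf₁, ?_, ?_, ?_, ?_, ?_⟩
  · simp only [Perm.mul_apply, f1a, ga]
  · simp only [Perm.mul_apply, f1b, gb]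
  · calc g * f₁ * v = g * (f₁ * v) := by group
      _ = g * (v * f₁) := by rw [f1v]
      _ = (g * v) * f₁ := by group
      _ = (v * g) * f₁ := by rw [gv]
      _ = v * (g * f₁) := by group
  · simp only [Perm.mul_apply, f1x, gc]
  · simpa only [Perm.mul_apply] using gx

end EH

end Cfsg.Agent.LW
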