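import Cfsg.Agent.Lib.LW.E1

/-!
# Livingstone–Wagner, Theorem E, part 2: Sylow configuration
-/

set_option autoImplicit false
set_option linter.unusedSectionVars false
set_option linter.unusedVariables false

namespace Cfsg.Agent.LW

open Equiv Equiv.Perm

variable {Ω : Type*} [Fintype Ω] [DecidableEq Ω]

namespace EH

variable {X : Subgroup (Perm Ω)}

lemma exists_point_not_in (s : Finset Ω) (hs : s.card < Fintype.card Ω) : ∃ y, y ∉ s := by
  obtain ⟨y, -, hy⟩ := Finset.exists_mem_notMem_of_card_lt_card (s := s)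
    (t := (Finset.univ : Finset Ω)) (by simpa using hs)
  exact ⟨y, hy⟩

/-- (F6) If a Sylow 2-subgroup of a two-point stabiliser has a unique involution then Glauberman's
`Z*`-theorem gives a contradiction. -/
lemma exists_second_invol (h : EH X) (hn : 6 ≤ Fintype.card Ω) {a b : Ω} (hab : a ≠ b)
    {A : Subgroup (Perm Ω)} (hA : IsSyl (ptS X {a, b}) A) {v : Perm Ω} (hvA : v ∈ A)
    (hv2 : v * v = 1) (hv1 : v ≠ 1) : ∃ x ∈ A, x * x = 1 ∧ x ≠ 1 ∧ x ≠ v := by
  by_contra hcon
  push Not at hcon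
  set Z := ptS X {a, b} with hZ
  have hvZ : v ∈ Z := hA.le hvA
  have hVI : VI X v a b := ⟨hvZ.1, hv2, hv1, hab, hvZ.2 a (by simp), hvZ.2 b (by simp)⟩
  set u : ↥Z := ⟨v, hvZ⟩ with hu
  have hou : orderOf u = 2 := by
    apply orderOf_eq_prime
    · apply Subtype.ext
      simp [hu, pow_two, hv2]
    · intro h1
      exact hv1 (congrArg Subtype.val h1)
  have huP : u ∈ (hA.toSylow : Subgroup ↥Z) := Subgroup.mem_subgroupOf.mpr hvA
  have hiso : ∀ g : ↥Z, g * u * g⁻¹ ∈ (hA.toSylow : Subgroup ↥Z) → g * u * g⁻¹ = u := by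
    intro g hg
    apply Subtype.ext
    have h1 : ((g * u * g⁻¹ : ↥Z) : Perm Ω) ∈ A := Subgroup.mem_subgroupOf.mp hg
    apply hcon _ h1
    · change (g : Perm Ω) * v * (g : Perm Ω)⁻¹ * ((g : Perm Ω) * v * (g : Perm Ω)⁻¹) = 1
      calc (g : Perm Ω) * v * (g : Perm Ω)⁻¹ * ((g : Perm Ω) * v * (g : Perm Ω)⁻¹)
          = g * (v * v) * (g : Perm Ω)⁻¹ := by group
        _ = 1 := by rw [hv2]; group
    · change (g : Perm Ω) * v * (g : Perm Ω)⁻¹ ≠ 1
      intro h2
      apply hv1
      calc v = (g : Perm Ω)⁻¹ * ((g : Perm Ω) * v * (g : Perm Ω)⁻¹) * g := by group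
        _ = 1 := by rw [h2]; group
  obtain ⟨N, hN, hodd, hcomm⟩ := Cfsg.Agent.S0215.result hA.toSylow u hou huP hiso
  -- `N` is trivial
  have hNb : N = ⊥ := by
    by_contra hne
    obtain ⟨ν, hν1⟩ := Subgroup.ne_bot_iff_exists_ne_one.mp hne
    set n' : ↥Z := ν.1 with hn'
    have hn'N : n' ∈ N := ν.2
    set p : Perm Ω := (n' : Perm Ω) with hp
    have hp1 : p ≠ 1 := by
      intro h1
      apply hν1
      apply Subtype.ext
      apply Subtype.ext
      exact h1
    obtain ⟨c, hc⟩ : ∃ c, p c ≠ c := by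
      by_contra h2
      push Not at h2
      apply hp1
      ext y
      simp [h2]
    have pa : p a = a := n'.2.2 a (by simp)
    have pb : p b = b := n'.2.2 b (by simp)
    have hca : c ≠ a := by
      rintro rfl
      exact hc pa
    have hcb : c ≠ b := by
      rintro rfl
      exact hc pb
    have hc'a : p c ≠ a := fun e => hca (p.injective (e.trans pa.symm))
    have hc'b : p c ≠ b := fun e => hcb (p.injective (e.trans pb.symm))
    set Nh : Subgroup (Perm Ω) := N.map Z.subtype with hNh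
    have horb : orb Nh c = (Finset.univ : Finset Ω) \ {a, b} := by
      ext y
      rw [mem_orb, Finset.mem_sdiff]
      constructor
      · rintro ⟨q, ⟨g, -, rfl⟩, rfl⟩
        refine ⟨Finset.mem_univ _, ?_⟩
        have ga : (g : Perm Ω) a = a := g.2.2 a (by simp)
        have gb : (g : Perm Ω) b = b := g.2.2 b (by simp)
        simp only [Finset.mem_insert, Finset.mem_singleton, not_or, Subgroup.subtype_apply]
        exact ⟨fun e => hca ((g : Perm Ω).injective (e.trans ga.symm)),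
          fun e => hcb ((g : Perm Ω).injective (e.trans gb.symm))⟩
      · rintro ⟨-, hy⟩
        simp only [Finset.mem_insert, Finset.mem_singleton, not_or] at hy
        by_cases hyc : y = c
        · subst hyc
          exact ⟨1, Subgroup.one_mem _, rfl⟩
        obtain ⟨g, hg, g1, g2, g3, g4⟩ := h.move4 (x₁ := a) (x₂ := b) (x₃ := c) (x₄ := p c) (y₁ := a)
          (y₂ := b) (y₃ := c) (y₄ := y) hab hca.symm hc'a.symm hcb.symm hc'b.symm hc.symm
          hab hca.symm (Ne.symm hy.1) hcb.symm (Ne.symm hy.2) (Ne.symm hyc)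
        let gh : ↥Z := ⟨g, hg, fun x hx => by
          simp only [Finset.mem_insert, Finset.mem_singleton] at hx
          rcases hx with rfl | rfl
          · exact g1
          · exact g2⟩
        have hconj : gh * n' * gh⁻¹ ∈ N := hN.conj_mem n' hn'N gh
        refine ⟨((gh * n' * gh⁻¹ : ↥Z) : Perm Ω), ⟨_, hconj, rfl⟩, ?_⟩
        change (g * p * g⁻¹) c = y
        have i3 : g⁻¹ c = c := by rw [Perm.inv_eq_iff_eq, g3]
        simp only [Perm.mul_apply, i3, g4]
    have hc1 := card_eq_orb_mul Nh c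
    have hc2 : Nat.card Nh = Nat.card N :=
      (Nat.card_congr (N.equivMapOfInjective _ Z.subtype_injective).toEquiv).symm
    rw [hc2, horb, Finset.card_sdiff_of_subset (Finset.subset_univ _), Finset.card_pair hab,
      Finset.card_univ] at hc1
    rw [hc1] at hodd
    have h3 := (Nat.odd_mul.mp hodd).1
    obtain ⟨c1, hc1'⟩ := h.ev
    obtain ⟨c2, hc2'⟩ := h3
    omega
  have hcm : ∀ g : ↥Z, u * g = g * u := by
    intro g
    have h1 := hcomm g
    rw [hNb, Subgroup.mem_bot] at h1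
    exact mul_inv_eq_iff_eq_mul.mp (mul_inv_eq_one.mp h1)
  obtain ⟨c, hc⟩ := exists_point_not_in ({a, b} : Finset Ω) (by
    rw [Finset.card_pair hab]; omega)
  simp only [Finset.mem_insert, Finset.mem_singleton, not_or] at hc
  have s1 := hVI.sep h hc.1 hc.2
  obtain ⟨e, he⟩ := exists_point_not_in ({a, b, c, v c} : Finset Ω) (by
    have : ({a, b, c, v c} : Finset Ω).card ≤ 4 := Finset.card_le_four
    omega)
  simp only [Finset.mem_insert, Finset.mem_singleton, not_or] at he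
  obtain ⟨g, hg, g1, g2, g3, g4⟩ := h.move4 (x₁ := a) (x₂ := b) (x₃ := c) (x₄ := v c) (y₁ := a)
    (y₂ := b) (y₃ := c) (y₄ := e) hab (Ne.symm hc.1) (hVI.ne_a hc.1).symm (Ne.symm hc.2)
    (hVI.ne_b hc.2).symm s1.symm hab (Ne.symm hc.1) (Ne.symm he.1) (Ne.symm hc.2) (Ne.symm he.2.1)
    (Ne.symm he.2.2.1)
  let gh : ↥Z := ⟨g, hg, fun x hx => by
    simp only [Finset.mem_insert, Finset.mem_singleton] at hx
    rcases hx with rfl | rfl
    · exact g1
    · exact g2⟩
  have h5 := congrArg (fun f : ↥Z => (f : Perm Ω) c) (hcm gh)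
  change v (g c) = g (v c) at h5
  rw [g3, g4] at h5
  exact he.2.2.2 h5.symm

lemma pg_pow {P : Subgroup (Perm Ω)} (hP : IsPGroup 2 P) {q : Perm Ω} (hq : q ∈ P) :
    ∃ f : ℕ, q ^ (2 ^ f) = 1 := by
  obtain ⟨f, hf⟩ := hP ⟨q, hq⟩
  refine ⟨f, ?_⟩
  have := congrArg Subtype.val hf
  simpa using this

/-- The Sylow configuration. -/
structure Cfg (X : Subgroup (Perm Ω)) (a b : Ω) (A S : Subgroup (Perm Ω)) (v z : Perm Ω) (c d : Ω) :
    Prop where
  eh : EH X
  hn : 8 ≤ Fintype.card Ω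
  syl : IsSyl (ptS X {a, b}) A
  AS : A ≤ S
  S2 : IsPGroup 2 S
  SX : S ≤ X
  Sab : ∀ g ∈ S, (g a = a ∧ g b = b) ∨ (g a = b ∧ g b = a)
  SA : ∀ g ∈ S, g a = a → g ∈ A
  vi : VI X v a b
  vA : v ∈ A
  vc : ∀ g ∈ S, g * v = v * g
  zS : z ∈ S
  z2 : z * z = 1
  za : z a = b
  zb : z b = a
  hcd : c ≠ d
  zc : z c = c
  zd : z d = d

namespace Cfg

variable {a b c d : Ω} {A S : Subgroup (Perm Ω)} {v z : Perm Ω}

lemma hab (C : Cfg X a b A S v z c d) : a ≠ b := C.vi.hab

lemma hca (C : Cfg X a b A S v z c d) : c ≠ a := by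
  rintro rfl
  exact C.hab (C.zc.symm.trans C.za)

lemma hcb (C : Cfg X a b A S v z c d) : c ≠ b := by
  rintro rfl
  exact C.hab (C.zb.symm.trans C.zc)

lemma A_a (C : Cfg X a b A S v z c d) {q : Perm Ω} (hq : q ∈ A) : q a = a :=
  (C.syl.le hq).2 a (by simp)

lemma A_b (C : Cfg X a b A S v z c d) {q : Perm Ω} (hq : q ∈ A) : q b = b :=
  (C.syl.le hq).2 b (by simp)

lemma A_X (C : Cfg X a b A S v z c d) {q : Perm Ω} (hq : q ∈ A) : q ∈ X := (C.syl.le hq).1

lemma A_semi (C : Cfg X a b A S v z c d) {q : Perm Ω} (hq : q ∈ A) {y : Ω} (hya : y ≠ a) (hyb : y ≠ b)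
    (hy : q y = y) : q = 1 := by
  obtain ⟨f, hf⟩ := pg_pow C.syl.pg hq
  exact C.eh.two_elt_fix3 (C.A_X hq) hf (C.A_a hq) (C.A_b hq) hy C.hab hya.symm hyb.symm

lemma A_norm (C : Cfg X a b A S v z c d) {g q : Perm Ω} (hg : g ∈ S) (hq : q ∈ A) :
    g * q * g⁻¹ ∈ A := by
  apply C.SA _ (S.mul_mem (S.mul_mem hg (C.AS hq)) (S.inv_mem hg))
  rcases C.Sab g hg with ⟨h1, h2⟩ | ⟨h1, h2⟩
  · have i1 : g⁻¹ a = a := by rw [Perm.inv_eq_iff_eq, h1]
    simp only [Perm.mul_apply, i1, C.A_a hq, h1]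
  · have i1 : g⁻¹ a = b := by rw [Perm.inv_eq_iff_eq, h2]
    simp only [Perm.mul_apply, i1, C.A_b hq, h2]

lemma z_inv (C : Cfg X a b A S v z c d) : z⁻¹ = z := invol_inv C.z2

/-- An element commuting with `z` permutes `{c, d}`. -/
lemma comm_z (C : Cfg X a b A S v z c d) {r : Perm Ω} (hr : r * z = z * r) : r c = c ∨ r c = d := by
  have h1 : z (r c) = r c := EH.fx_comm (u := z) (v := r) hr.symm C.zc
  by_contra hcon
  push Not at hcon
  have h2 : z = 1 := C.eh.invol_fix3 (C.SX C.zS) C.z2 h1 C.zc C.zd hcon.1 hcon.2 C.hcd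
  rw [h2] at C
  exact C.hab C.za

lemma v_c (C : Cfg X a b A S v z c d) : v c = d := by
  have h1 : v * z = z * v := (C.vc z C.zS).symm
  rcases C.comm_z h1 with h | h
  · exact absurd h (C.vi.sep C.eh C.hca C.hcb)
  · exact h

/-- The centraliser of `z` in `A`. -/
lemma cent_z (C : Cfg X a b A S v z c d) {q : Perm Ω} (hq : q ∈ A) (hqz : q * z = z * q) :
    q = 1 ∨ q = v := by
  rcases C.comm_z hqz with h | h
  · exact Or.inl (C.A_semi hq C.hca C.hcb h)
  · right
    have h1 : (v * q) c = c := by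
      simp only [Perm.mul_apply, h]
      rw [← C.v_c, C.vi.app]
    have h2 := C.A_semi (A.mul_mem C.vA hq) C.hca C.hcb h1
    have h3 : q = v⁻¹ := eq_inv_of_mul_eq_one_right h2
    rw [h3, invol_inv C.vi.sq]

end Cfg

/-- The final step in showing that no element of `A` squares to `v`. -/
lemma no_sq_aux (h : EH X) {v : Perm Ω} {a b c : Ω} (hv : VI X v a b) (hca : c ≠ a) (hcb : c ≠ b)
    {x₁ κ : Perm Ω} (hx₁ : x₁ * x₁ = 1) (hκ : κ ∈ X) (κa : κ a = a) (κb : κ b = b) (κc : κ c = c)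
    (hκv : κ * v = v * κ) (hsq : (x₁ * κ) * (x₁ * κ) = v) : False := by
  have hodd := h.odd3 hκ κa κb κc hv.hab hca.symm hcb.symm
  set N := orderOf κ with hN
  have hκN : κ ^ N = 1 := pow_orderOf_eq_one κ
  have hxi : x₁⁻¹ = x₁ := invol_inv hx₁
  have h1 : x₁ * κ * x₁ = v * κ⁻¹ := by
    rw [eq_mul_inv_iff_mul_eq, ← hsq]
    group
  have h2 : (x₁ * κ * x₁) ^ N = 1 := by
    have : x₁ * κ * x₁ = x₁ * κ * x₁⁻¹ := by rw [hxi]
    rw [this, conj_pow, hκN]
    group
  have hc : Commute v κ⁻¹ := (Commute.inv_left (show Commute κ v from hκv)).symm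
  rw [h1, hc.mul_pow, inv_pow, hκN, inv_one, mul_one] at h2
  obtain ⟨M, hM⟩ := hodd
  rw [hM, pow_succ, pow_mul, pow_two, hv.sq, one_pow, one_mul] at h2
  exact hv.ne h2

namespace Cfg

variable {a b c d : Ω} {A S : Subgroup (Perm Ω)} {v z : Perm Ω}

/-- (T2) No element of `A` squares to `v`. -/
lemma T2 (C : Cfg X a b A S v z c d) {w : Perm Ω} (hw : w ∈ A) : w * w ≠ v := by
  intro hww
  obtain ⟨x, hxA, hx2, hx1, hxv⟩ := C.eh.exists_second_invol (by have := C.hn; omega) C.hab C.syl C.vA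
    C.vi.sq C.vi.ne
  have h := C.eh
  have hv := C.vi
  have happ := hv.app
  have hca := C.hca
  have hcb := C.hcb
  have hw1 : w ≠ 1 := by
    rintro rfl
    simp only [mul_one] at hww
    exact hv.ne hww.symm
  have hwv : w ≠ v := by
    rintro rfl
    rw [hv.sq] at hww
    exact hv.ne hww.symm
  have wa := C.A_a hw
  have wb := C.A_b hw
  have xa := C.A_a hxA
  have xb := C.A_b hxA
  have hwS := C.AS hw
  have hxS := C.AS hxA
  have cwv : w * v = v * w := C.vc w hwS
  have cxv : x * v = v * x := C.vc x hxS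
  have eq_of : ∀ {q : Perm Ω}, q ∈ A → q c = v c → q = v := by
    intro q hq hqc
    have h1 : (v * q) c = c := by simp only [Perm.mul_apply, hqc, happ]
    have h2 := C.A_semi (A.mul_mem C.vA hq) hca hcb h1
    have h3 : q = v⁻¹ := eq_inv_of_mul_eq_one_right h2
    rw [h3, invol_inv hv.sq]
  have e1 : w c ≠ a := fun e => hca (w.injective (e.trans wa.symm))
  have e2 : w c ≠ b := fun e => hcb (w.injective (e.trans wb.symm))
  have e3 : w c ≠ c := fun e => hw1 (C.A_semi hw hca hcb e)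
  have e4 : w c ≠ v c := fun e => hwv (eq_of hw e)
  have x1 : x c ≠ a := fun e => hca (x.injective (e.trans xa.symm))
  have x2 : x c ≠ b := fun e => hcb (x.injective (e.trans xb.symm))
  have x3 : x c ≠ c := fun e => hx1 (C.A_semi hxA hca hcb e)
  have x4 : x c ≠ v c := fun e => hxv (eq_of hxA e)
  obtain ⟨f, hf, fa, fb, fv, fc, fw⟩ := h.E_two hv hca hcb e1 e2 hca hcb x1 x2 e3 e4 x3 x4
  set w' := f * w * f⁻¹ with hw'
  have hw'X : w' ∈ X := X.mul_mem (X.mul_mem hf (C.A_X hw)) (X.inv_mem hf)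
  have fvi : f * v * f⁻¹ = v := by
    rw [fv]; group
  have hw'2 : w' * w' = v := by
    calc w' * w' = f * (w * w) * f⁻¹ := by rw [hw']; group
      _ = v := by rw [hww, fvi]
  have i1 : f⁻¹ c = c := by rw [Perm.inv_eq_iff_eq, fc]
  have i2 : f⁻¹ a = a := by rw [Perm.inv_eq_iff_eq, fa]
  have i3 : f⁻¹ b = b := by rw [Perm.inv_eq_iff_eq, fb]
  have hw'c : w' c = f (w c) := by simp only [hw', Perm.mul_apply, i1]
  have w'a : w' a = a := by simp only [hw', Perm.mul_apply, i2, wa, fa]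
  have w'b : w' b = b := by simp only [hw', Perm.mul_apply, i3, wb, fb]
  have cw'v : w' * v = v * w' := by
    rw [← hw'2]; group
  rcases fw with fw | fw
  · have hw'c' : w' c = x c := by rw [hw'c, fw]
    refine no_sq_aux h hv hca hcb (x₁ := x) (κ := x * w') hx2 (X.mul_mem (C.A_X hxA) hw'X) ?_ ?_ ?_ ?_ ?_
    · simp only [Perm.mul_apply, w'a, xa]
    · simp only [Perm.mul_apply, w'b, xb]
    · simp only [Perm.mul_apply, hw'c', invol_apply hx2]
    · calc x * w' * v = x * (w' * v) := by group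
        _ = x * (v * w') := by rw [cw'v]
        _ = (x * v) * w' := by group
        _ = (v * x) * w' := by rw [cxv]
        _ = v * (x * w') := by group
    · have : x * (x * w') = w' := by rw [← mul_assoc, hx2, one_mul]
      rw [this]; exact hw'2
  · have hw'c' : w' c = v (x c) := by rw [hw'c, fw]
    have hxvy : ∀ y, x (v y) = v (x y) := by
      intro y
      have := congrArg (fun g : Perm Ω => g y) cxv
      simpa only [Perm.mul_apply] using this
    refine no_sq_aux h hv hca hcb (x₁ := x * v) (κ := v * x * w') ?_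
      (X.mul_mem (X.mul_mem hv.mem (C.A_X hxA)) hw'X) ?_ ?_ ?_ ?_ ?_
    · calc x * v * (x * v) = x * (v * x) * v := by group
        _ = x * (x * v) * v := by rw [cxv]
        _ = (x * x) * (v * v) := by group
        _ = 1 := by rw [hx2, hv.sq, one_mul]
    · simp only [Perm.mul_apply, w'a, xa, hv.va]
    · simp only [Perm.mul_apply, w'b, xb, hv.vb]
    · simp only [Perm.mul_apply, hw'c', hxvy, happ, invol_apply hx2]
    · calc v * x * w' * v = v * x * (w' * v) := by group
        _ = v * x * (v * w') := by rw [cw'v]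
        _ = v * (x * v) * w' := by group
        _ = v * (v * x) * w' := by rw [cxv]
        _ = v * (v * x * w') := by group
    · have : x * v * (v * x * w') = w' := by
        calc x * v * (v * x * w') = x * (v * v) * x * w' := by group
          _ = (x * x) * w' := by rw [hv.sq]; group
          _ = w' := by rw [hx2, one_mul]
      rw [this]; exact hw'2

/-- The action of `z` on `A`. -/
lemma conj_or (C : Cfg X a b A S v z c d) {e : Perm Ω} (he : e ∈ A) :
    z * e * z = e ∨ z * e * z = e * v := by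
  set y := e⁻¹ * (z * e * z) with hy
  have hzi := C.z_inv
  have hyA : y ∈ A := A.mul_mem (A.inv_mem he) (by
    have := C.A_norm C.zS he
    rwa [hzi] at this)
  have hinv : z * y * z⁻¹ = y⁻¹ := by
    rw [hzi, hy, mul_inv_rev, mul_inv_rev, mul_inv_rev, hzi, inv_inv]
    calc z * (e⁻¹ * (z * e * z)) * z = z * e⁻¹ * z * e * (z * z) := by group
      _ = z * (e⁻¹ * (z * e)) := by rw [C.z2]; group
      _ = _ := by group
  have key : y = 1 ∨ y = v := by
    by_cases hy1 : y = 1
    · exact Or.inl hy1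
    right
    classical
    have hex : ∃ f : ℕ, y ^ (2 ^ f) = 1 := pg_pow C.syl.pg hyA
    have hm : y ^ (2 ^ Nat.find hex) = 1 := Nat.find_spec hex
    have hm0 : Nat.find hex ≠ 0 := by
      intro h0
      rw [h0] at hm
      simp only [pow_zero, pow_one] at hm
      exact hy1 hm
    obtain ⟨l, hl⟩ := Nat.exists_eq_succ_of_ne_zero hm0
    have hl' : y ^ (2 ^ l) ≠ 1 := Nat.find_min hex (by omega)
    rw [hl] at hm
    have y₀2 : y ^ (2 ^ l) * y ^ (2 ^ l) = 1 := by
      rw [← pow_add, ← two_mul, ← pow_succ']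
      exact hm
    have y₀A : y ^ (2 ^ l) ∈ A := A.pow_mem hyA _
    have hcz : y ^ (2 ^ l) * z = z * y ^ (2 ^ l) := by
      have h1 := inv_conj_pow hinv (2 ^ l)
      rw [invol_inv y₀2] at h1
      calc y ^ (2 ^ l) * z = (z * y ^ (2 ^ l) * z⁻¹) * z := by rw [h1]
        _ = z * y ^ (2 ^ l) := by group
    have hy₀ : y ^ (2 ^ l) = v := (C.cent_z y₀A hcz).resolve_left hl'
    cases l with
    | zero => simpa using hy₀
    | succ l' =>
      exfalso
      apply C.T2 (A.pow_mem hyA (2 ^ l'))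
      rw [← pow_add, ← two_mul, ← pow_succ']
      exact hy₀
  rcases key with h1 | h1
  · left
    rw [hy, inv_mul_eq_one] at h1
    exact h1.symm
  · right
    rw [hy, inv_mul_eq_iff_eq_mul] at h1
    exact h1

/-- `A` has exactly the four elements `1, v, x, x v`. -/
lemma four (C : Cfg X a b A S v z c d) {x : Perm Ω} (hxA : x ∈ A) (hx2 : x * x = 1) (hx1 : x ≠ 1)
    (hxv : x ≠ v) {e : Perm Ω} (he : e ∈ A) : e = 1 ∨ e = v ∨ e = x ∨ e = x * v := by
  by_cases h1 : e = 1
  · exact Or.inl h1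
  by_cases h2 : e = v
  · exact Or.inr (Or.inl h2)
  right; right
  have hcomm_of : ∀ {q : Perm Ω}, z * q * z = q → q * z = z * q := by
    intro q hq
    calc q * z = (z * q * z) * z := by rw [hq]
      _ = z * q * (z * z) := by group
      _ = z * q := by rw [C.z2, mul_one]
  have hne : ∀ {q : Perm Ω}, q ∈ A → q ≠ 1 → q ≠ v → z * q * z = q * v := by
    intro q hq h3 h4
    rcases C.conj_or hq with h5 | h5
    · exfalso
      rcases C.cent_z hq (hcomm_of h5) with h6 | h6
      · exact h3 h6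
      · exact h4 h6
    · exact h5
  have hze := hne he h1 h2
  have hzx := hne hxA hx1 hxv
  have hev : e * v = v * e := C.vc e (C.AS he)
  have hprod : z * (x * e) * z = x * e := by
    calc z * (x * e) * z = (z * x * z) * (z * e * z) := by
          calc z * (x * e) * z = z * x * 1 * e * z := by group
            _ = z * x * (z * z) * e * z := by rw [C.z2]
            _ = _ := by group
      _ = x * v * (e * v) := by rw [hze, hzx]
      _ = x * (v * e) * v := by group
      _ = x * (e * v) * v := by rw [hev]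
      _ = x * e * (v * v) := by group
      _ = x * e := by rw [C.vi.sq, mul_one]
  have hxi : x⁻¹ = x := invol_inv hx2
  rcases C.cent_z (A.mul_mem hxA he) (hcomm_of hprod) with h3 | h3
  · left
    rw [← hxi]
    exact eq_inv_of_mul_eq_one_right h3
  · right
    have : e = x⁻¹ * v := by rw [← h3]; group
    rw [this, hxi]

end Cfg

/-- Existence of the Sylow configuration. -/
lemma exists_cfg (h : EH X) (hn : 8 ≤ Fintype.card Ω) :
    ∃ (a b : Ω) (A S : Subgroup (Perm Ω)) (v z : Perm Ω) (c d : Ω), Cfg X a b A S v z c d := by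
  obtain ⟨a⟩ : Nonempty Ω := Fintype.card_pos_iff.mp (by omega)
  obtain ⟨b, hb⟩ := exists_point_not_in ({a} : Finset Ω) (by simp; omega)
  obtain ⟨c₀, hc₀⟩ := exists_point_not_in ({a, b} : Finset Ω) (by
    have : ({a, b} : Finset Ω).card ≤ 2 := Finset.card_le_two
    omega)
  obtain ⟨d₀, hd₀⟩ := exists_point_not_in ({a, b, c₀} : Finset Ω) (by
    have : ({a, b, c₀} : Finset Ω).card ≤ 3 := Finset.card_le_three
    omega)
  simp only [Finset.mem_insert, Finset.mem_singleton, not_or] at hb hc₀ hd₀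
  have hab : a ≠ b := Ne.symm hb
  have hc₀a : a ≠ c₀ := Ne.symm hc₀.1
  have hc₀b : b ≠ c₀ := Ne.symm hc₀.2
  have hd₀a : a ≠ d₀ := Ne.symm hd₀.1
  have hd₀b : b ≠ d₀ := Ne.symm hd₀.2.1
  have hcd₀ : c₀ ≠ d₀ := Ne.symm hd₀.2.2
  set Z := ptS X {a, b} with hZ
  set Z' := X ⊓ stS ({a, b} : Finset Ω) with hZ'
  have hZZ' : Z ≤ Z' := by
    intro g hg
    refine ⟨hg.1, stS_of_maps fun x hx => ?_⟩
    rw [hg.2 x hx]; exact hx
  obtain ⟨A, hA, -⟩ := exists_isSyl Z ⊥ bot_le IsPGroup.of_bot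
  obtain ⟨S, hS, hAS⟩ := exists_isSyl Z' A (hA.le.trans hZZ') hA.pg
  have hZ'ab : ∀ g ∈ Z', (g a = a ∧ g b = b) ∨ (g a = b ∧ g b = a) := by
    intro g hg
    have h1 : g a ∈ ({a, b} : Finset Ω) := (hg.2 a).mpr (by simp)
    have h2 : g b ∈ ({a, b} : Finset Ω) := (hg.2 b).mpr (by simp)
    simp only [Finset.mem_insert, Finset.mem_singleton] at h1 h2
    rcases h1 with h1 | h1
    · left
      refine ⟨h1, h2.resolve_left fun e => hab (g.injective (h1.trans e.symm))⟩
    · right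
      refine ⟨h1, h2.resolve_right fun e => hab (g.injective (h1.trans e.symm))⟩
  have hSA : ∀ g ∈ S, g a = a → g ∈ A := by
    intro g hg hga
    have hgZ : g ∈ Z := by
      refine ⟨(hS.le hg).1, fun x hx => ?_⟩
      simp only [Finset.mem_insert, Finset.mem_singleton] at hx
      rcases hZ'ab g (hS.le hg) with ⟨h1, h2⟩ | ⟨h1, h2⟩
      · rcases hx with rfl | rfl
        · exact h1
        · exact h2
      · exfalso
        exact hab (hga.symm.trans h1)
    have h3 := hA.max (S ⊓ Z) inf_le_right hS.pg.to_inf_left (le_inf hAS hA.le)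
    rw [← h3]
    exact ⟨hg, hgZ⟩
  have hnorm : ∀ g ∈ S, ∀ q ∈ A, g * q * g⁻¹ ∈ A := by
    intro g hg q hq
    apply hSA _ (S.mul_mem (S.mul_mem hg (hAS hq)) (S.inv_mem hg))
    have qa : q a = a := (hA.le hq).2 a (by simp)
    have qb : q b = b := (hA.le hq).2 b (by simp)
    rcases hZ'ab g (hS.le hg) with ⟨h1, h2⟩ | ⟨h1, h2⟩
    · have i1 : g⁻¹ a = a := by rw [Perm.inv_eq_iff_eq, h1]
      simp only [Perm.mul_apply, i1, qa, h1]
    · have i1 : g⁻¹ a = b := by rw [Perm.inv_eq_iff_eq, h2]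
      simp only [Perm.mul_apply, i1, qb, h2]
  have ht4 : ({a, b, c₀, d₀} : Finset Ω).card = 4 := by
    rw [Finset.card_insert_of_notMem (by simp [hab, hc₀a, hd₀a]),
      Finset.card_insert_of_notMem (by simp [hc₀b, hd₀b]),
      Finset.card_insert_of_notMem (by simp [hcd₀]), Finset.card_singleton]
  -- `A` is non-trivial
  have hAne : A ≠ ⊥ := by
    obtain ⟨j, hj, hj2, hjact⟩ := exists_invol_acting h.T h.I (π := swap c₀ d₀) ht4 (swap_mul_self _ _)
      (by
        intro x hx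
        simp only [Finset.mem_insert, Finset.mem_singleton] at hx ⊢
        rw [swap_apply_def]
        split_ifs <;> simp_all)
    have ja : j a = a := by rw [hjact _ (by simp), swap_apply_of_ne_of_ne hc₀a hd₀a]
    have jb : j b = b := by rw [hjact _ (by simp), swap_apply_of_ne_of_ne hc₀b hd₀b]
    have jc : j c₀ = d₀ := by rw [hjact _ (by simp), swap_apply_left]
    have hjZ : j ∈ Z := ⟨hj, fun x hx => by
      simp only [Finset.mem_insert, Finset.mem_singleton] at hx
      rcases hx with rfl | rfl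
      · exact ja
      · exact jb⟩
    obtain ⟨g, hg, hgc⟩ := hA.conj_into (Subgroup.zpowers j) (Subgroup.zpowers_le.mpr hjZ)
      (isPGroup_zpowers (f := 1) (by rw [pow_one, pow_two, hj2]))
    have h1 := hgc j (Subgroup.mem_zpowers j)
    intro hbot
    rw [hbot, Subgroup.mem_bot] at h1
    have h2 : j = 1 := by
      have : j = g⁻¹ * (g * j * g⁻¹) * g := by group
      rw [this, h1]; group
    rw [h2] at jc
    exact hcd₀ jc
  -- the central involution
  have hS2 : IsPGroup 2 ↥S := hS.pg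
  haveI hAn : (A.subgroupOf S).Normal := ⟨by
    intro n hn g
    exact Subgroup.mem_subgroupOf.mpr (hnorm g g.2 n (Subgroup.mem_subgroupOf.mp hn))⟩
  have hA'ne : A.subgroupOf S ≠ ⊥ := by
    intro hbot
    apply hAne
    rw [eq_bot_iff]
    intro x hx
    have : (⟨x, hAS hx⟩ : ↥S) ∈ A.subgroupOf S := Subgroup.mem_subgroupOf.mpr hx
    rw [hbot, Subgroup.mem_bot] at this
    have := congrArg Subtype.val this
    simpa using this
  have hcen := Cfsg.Agent.Lib.Basic.SylowUtil.inf_center_ne_bot_of_isPGroup hS2 hA'ne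
  obtain ⟨w, hw⟩ := Subgroup.ne_bot_iff_exists_ne_one.mp hcen
  have hwA : ((w : ↥S) : Perm Ω) ∈ A := Subgroup.mem_subgroupOf.mp w.2.1
  have hwc : ∀ g ∈ S, g * ((w : ↥S) : Perm Ω) = ((w : ↥S) : Perm Ω) * g := by
    intro g hg
    have h1 := (Subgroup.mem_center_iff.mp w.2.2) ⟨g, hg⟩
    exact congrArg Subtype.val h1
  have hw1 : ((w : ↥S) : Perm Ω) ≠ 1 := by
    intro h1
    apply hw
    apply Subtype.ext
    apply Subtype.ext
    exact h1
  obtain ⟨f, hf⟩ := pg_pow hA.pg hwA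
  obtain ⟨i, hi, hi'⟩ := exists_invol_pow hf hw1
  set v := ((w : ↥S) : Perm Ω) ^ i with hv
  have hvA : v ∈ A := A.pow_mem hwA i
  have hvc : ∀ g ∈ S, g * v = v * g := fun g hg => (Commute.pow_right (hwc g hg) i)
  have hvi : VI X v a b := ⟨(hA.le hvA).1, hi, hi', hab, (hA.le hvA).2 a (by simp),
    (hA.le hvA).2 b (by simp)⟩
  -- the involution `z`
  obtain ⟨z₀, hz₀, hz₀2, hz₀act⟩ := exists_invol_acting h.T h.I (π := swap a b) ht4 (swap_mul_self _ _)
    (by
      intro x hx
      simp only [Finset.mem_insert, Finset.mem_singleton] at hx ⊢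
      rw [swap_apply_def]
      split_ifs <;> simp_all)
  have z₀a : z₀ a = b := by rw [hz₀act _ (by simp), swap_apply_left]
  have z₀b : z₀ b = a := by rw [hz₀act _ (by simp), swap_apply_right]
  have z₀c : z₀ c₀ = c₀ := by
    rw [hz₀act _ (by simp), swap_apply_of_ne_of_ne hc₀a.symm hc₀b.symm]
  have z₀d : z₀ d₀ = d₀ := by
    rw [hz₀act _ (by simp), swap_apply_of_ne_of_ne hd₀a.symm hd₀b.symm]
  have hz₀Z' : z₀ ∈ Z' := ⟨hz₀, stS_of_maps fun x hx => by
    simp only [Finset.mem_insert, Finset.mem_singleton] at hx ⊢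
    rcases hx with rfl | rfl
    · right; exact z₀a
    · left; exact z₀b⟩
  obtain ⟨g, hg, hgc⟩ := hS.conj_into (Subgroup.zpowers z₀) (Subgroup.zpowers_le.mpr hz₀Z')
    (isPGroup_zpowers (f := 1) (by rw [pow_one, pow_two, hz₀2]))
  have hzS := hgc z₀ (Subgroup.mem_zpowers z₀)
  have hza : (g * z₀ * g⁻¹) a = b ∧ (g * z₀ * g⁻¹) b = a := by
    rcases hZ'ab g hg with ⟨h1, h2⟩ | ⟨h1, h2⟩
    · have i1 : g⁻¹ a = a := by rw [Perm.inv_eq_iff_eq, h1]
      have i2 : g⁻¹ b = b := by rw [Perm.inv_eq_iff_eq, h2]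
      simp only [Perm.mul_apply, i1, i2, z₀a, z₀b, h1, h2, and_self]
    · have i1 : g⁻¹ a = b := by rw [Perm.inv_eq_iff_eq, h2]
      have i2 : g⁻¹ b = a := by rw [Perm.inv_eq_iff_eq, h1]
      simp only [Perm.mul_apply, i1, i2, z₀a, z₀b, h1, h2, and_self]
  refine ⟨a, b, A, S, v, g * z₀ * g⁻¹, g c₀, g d₀, h, hn, hA, hAS, hS.pg, hS.le.trans inf_le_left,
    fun x hx => hZ'ab x (hS.le hx), hSA, hvi, hvA, hvc, hzS, ?_, hza.1, hza.2,
    fun e => hcd₀ (g.injective e), ?_, ?_⟩
  · calc g * z₀ * g⁻¹ * (g * z₀ * g⁻¹) = g * (z₀ * z₀) * g⁻¹ := by group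
      _ = 1 := by rw [hz₀2]; group
  · simp [z₀c]
  · simp [z₀d]

end EH

end Cfsg.Agent.LW
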