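import Cfsg.Agent.Lib.LW.E2

/-!
# Livingstone–Wagner, Theorem E, part 3: the sign on the 2-cycles of `v`
-/

set_option autoImplicit false
set_option linter.unusedSectionVars false
set_option linter.unusedVariables false

namespace Cfsg.Agent.LW

open Equiv Equiv.Perm

variable {Ω : Type*} [Fintype Ω] [DecidableEq Ω]

/-- The permutation induced on finite subsets. -/
def psi : Perm Ω →* Perm (Finset Ω) where
  toFun g := g.finsetCongr
  map_one' := by
    ext s x
    simp
    exact Iff.rfl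
  map_mul' g h := by
    ext s x
    simp
    exact Iff.rfl

lemma psi_apply (g : Perm Ω) (s : Finset Ω) : psi g s = s.map g.toEmbedding := rfl

/-- A 2-cycle of `v`. -/
def pr (v : Perm Ω) (y : Ω) : Finset Ω := {y, v y}

lemma psi_pr {g v : Perm Ω} (hg : g * v = v * g) (y : Ω) : psi g (pr v y) = pr v (g y) := by
  rw [psi_apply, pr, pr, Finset.map_insert, Finset.map_singleton]
  have := congrArg (fun f : Perm Ω => f y) hg
  simp only [Perm.mul_apply] at this
  simp [this]

lemma pr_eq_iff {v : Perm Ω} (hv : v * v = 1) {w y : Ω} : pr v w = pr v y ↔ w = y ∨ w = v y := by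
  constructor
  · intro h
    have h1 : w ∈ pr v y := by rw [← h]; simp [pr]
    simpa [pr] using h1
  · rintro (rfl | rfl)
    · rfl
    · rw [pr, pr, invol_apply hv, Finset.pair_comm]

/-- The set of 2-cycles of `v` off `a, b`. -/
def PP (v : Perm Ω) (a b : Ω) : Finset (Finset Ω) :=
  ((Finset.univ : Finset Ω) \ {a, b}).image (pr v)

lemma mem_PP {v : Perm Ω} {a b : Ω} {s : Finset Ω} :
    s ∈ PP v a b ↔ ∃ y, y ≠ a ∧ y ≠ b ∧ pr v y = s := by
  simp [PP]
  tauto

/-- The centraliser of `v` in the two-point stabiliser. -/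
def EE (X : Subgroup (Perm Ω)) (v : Perm Ω) (a b : Ω) : Subgroup (Perm Ω) :=
  ptS X {a, b} ⊓ Subgroup.centralizer ({v} : Set (Perm Ω))

lemma mem_EE {X : Subgroup (Perm Ω)} {v g : Perm Ω} {a b : Ω} :
    g ∈ EE X v a b ↔ g ∈ X ∧ g a = a ∧ g b = b ∧ g * v = v * g := by
  rw [EE, Subgroup.mem_inf, mem_ptS, Subgroup.mem_centralizer_singleton_iff]
  simp only [Finset.mem_insert, Finset.mem_singleton, forall_eq_or_imp, forall_eq]
  constructor
  · rintro ⟨⟨h1, h2, h3⟩, h4⟩
    exact ⟨h1, h2, h3, h4⟩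
  · rintro ⟨h1, h2, h3, h4⟩
    exact ⟨⟨h1, h2, h3⟩, h4⟩

lemma psi_mem_PP {X : Subgroup (Perm Ω)} {v g : Perm Ω} {a b : Ω} (hg : g ∈ EE X v a b) (s : Finset Ω) :
    psi g s ∈ PP v a b ↔ s ∈ PP v a b := by
  obtain ⟨h1, h2, h3, h4⟩ := mem_EE.mp hg
  have h0 : psi g ∈ stS (PP v a b) := by
    apply stS_of_maps
    intro t ht
    obtain ⟨y, hya, hyb, rfl⟩ := mem_PP.mp ht
    rw [psi_pr h4]
    exact mem_PP.mpr ⟨g y, fun e => hya (g.injective (e.trans h2.symm)),
      fun e => hyb (g.injective (e.trans h3.symm)), rfl⟩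
  exact h0 s

/-- The action of `E` on the 2-cycles. -/
def phi (X : Subgroup (Perm Ω)) (v : Perm Ω) (a b : Ω) : ↥(EE X v a b) →* Perm ↥(PP v a b) where
  toFun e := rs (psi e.1) (PP v a b) (psi_mem_PP e.2)
  map_one' := by
    ext s : 1
    apply Subtype.ext
    simp
  map_mul' e f := by
    ext s : 1
    apply Subtype.ext
    simp

lemma phi_coe {X : Subgroup (Perm Ω)} {v : Perm Ω} {a b : Ω} (e : ↥(EE X v a b)) (s : ↥(PP v a b)) :
    ((phi X v a b e s : ↥(PP v a b)) : Finset Ω) = psi e.1 s.1 := rfl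

/-- Index-two kernel. -/
lemma card_eq_two_mul_ker {H : Type*} [Group H] [Finite H] (ε : H →* ℤˣ) {x : H} (hx : ε x = -1) :
    Nat.card H = 2 * Nat.card ε.ker := by
  have h1 := ε.ker.card_mul_index
  have h2 : ε.range = ⊤ := by
    rw [eq_top_iff]
    intro u _
    rcases Int.units_eq_one_or u with rfl | rfl
    · exact Subgroup.one_mem _
    · exact ⟨x, hx⟩
  have h3 : Nat.card ℤˣ = 2 := by rw [Nat.card_eq_fintype_card]; rfl
  rw [Subgroup.index_ker, h2, Subgroup.card_top, h3] at h1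
  omega

namespace EH

variable {X : Subgroup (Perm Ω)}

namespace Cfg

variable {a b c d : Ω} {A S : Subgroup (Perm Ω)} {v z : Perm Ω}

/-- Counting the 2-cycles. -/
lemma card_PP (C : Cfg X a b A S v z c d) : 2 * (PP v a b).card = Fintype.card Ω - 2 := by
  have hs : ((Finset.univ : Finset Ω) \ {a, b}).card = Fintype.card Ω - 2 := by
    rw [Finset.card_sdiff_of_subset (Finset.subset_univ _), Finset.card_pair C.hab, Finset.card_univ]
  rw [← hs, Finset.card_eq_sum_card_image (pr v) ((Finset.univ : Finset Ω) \ {a, b}),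
    Finset.sum_const_nat (m := 2), mul_comm]
  · rfl
  · intro s hs'
    obtain ⟨y, hya, hyb, rfl⟩ := mem_PP.mp hs'
    have hyne := C.vi.sep C.eh hya hyb
    have : ((Finset.univ : Finset Ω) \ {a, b}).filter (fun w => pr v w = pr v y) = {y, v y} := by
      ext w
      simp only [Finset.mem_filter, Finset.mem_sdiff, Finset.mem_univ, true_and,
        Finset.mem_insert, Finset.mem_singleton, not_or, pr_eq_iff C.vi.sq]
      constructor
      · exact fun h => h.2
      · rintro (rfl | rfl)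
        · exact ⟨⟨hya, hyb⟩, Or.inl rfl⟩
        · exact ⟨⟨C.vi.ne_a hya, C.vi.ne_b hyb⟩, Or.inr rfl⟩
    rw [this, Finset.card_pair hyne.symm]

/-- `8` does not divide `n - 2`. -/
lemma not_eight_dvd (C : Cfg X a b A S v z c d) {x : Perm Ω} (hxA : x ∈ A) (hx2 : x * x = 1)
    (hx1 : x ≠ 1) (hxv : x ≠ v) : ¬ 8 ∣ Fintype.card Ω - 2 := by
  intro h8
  have hT := C.eh.T
  have hcab : c ∉ ({a, b} : Finset Ω) := by
    simp [C.hca, C.hcb]
  have h1 := card_ptS_insert hT hcab (by rw [Finset.card_pair C.hab]; omega)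
  have hdab : d ∉ insert c ({a, b} : Finset Ω) := by
    have hda : d ≠ a := by
      rintro rfl
      exact C.hab (C.zd.symm.trans C.za)
    have hdb : d ≠ b := by
      rintro rfl
      exact C.hab (C.zb.symm.trans C.zd)
    simp [hda, hdb, C.hcd.symm]
  rw [Finset.card_pair C.hab] at h1
  obtain ⟨o, ho, h3⟩ := C.syl.card_eq
  have h4 : 8 ∣ Nat.card A * o := by
    rw [← h3, h1]
    exact Dvd.dvd.mul_right h8 _
  have h5 : Nat.card A ≤ 4 := by
    have hsub : (A : Set (Perm Ω)) ⊆ (({1, v, x, x * v} : Finset (Perm Ω)) : Set (Perm Ω)) := by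
      intro e he
      have := C.four hxA hx2 hx1 hxv he
      simpa using this
    have h6 := Set.ncard_le_ncard hsub (Finset.finite_toSet _)
    rw [Set.ncard_coe_finset] at h6
    have h7 : Nat.card A = (A : Set (Perm Ω)).ncard := rfl
    rw [h7]
    exact h6.trans Finset.card_le_four
  have h6 : Nat.Coprime 8 o := by
    have : Nat.Coprime (2 ^ 3) o := Nat.Coprime.pow_left _ (Nat.coprime_two_left.mpr ho)
    simpa using this
  have h7 := h6.dvd_of_dvd_mul_right h4
  have h8' := Nat.le_of_dvd Nat.card_pos h7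
  omega

/-- Theorem E's final contradiction. -/
theorem false_of (C : Cfg X a b A S v z c d) : False := by
  have h := C.eh
  have hv := C.vi
  have hca := C.hca
  have hcb := C.hcb
  have hn := C.hn
  obtain ⟨x, hxA, hx2, hx1, hxv⟩ := h.exists_second_invol (by omega) C.hab C.syl C.vA hv.sq hv.ne
  have h8 := C.not_eight_dvd hxA hx2 hx1 hxv
  have hPc := C.card_PP
  -- `v` and `x` lie in `E`
  have hvE : v ∈ EE X v a b := mem_EE.mpr ⟨hv.mem, hv.va, hv.vb, rfl⟩
  have hxE : x ∈ EE X v a b := mem_EE.mpr ⟨C.A_X hxA, C.A_a hxA, C.A_b hxA, C.vc x (C.AS hxA)⟩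
  set σ := phi X v a b ⟨x, hxE⟩ with hσ
  have hσ2 : σ ^ 2 = 1 := by
    rw [hσ, ← map_pow]
    have : (⟨x, hxE⟩ : ↥(EE X v a b)) ^ 2 = 1 := by
      apply Subtype.ext
      simp [pow_two, hx2]
    rw [this, map_one]
  have hσfix : ∀ s, σ s ≠ s := by
    rintro ⟨s, hs⟩ he
    obtain ⟨y, hya, hyb, rfl⟩ := mem_PP.mp hs
    have h1 := congrArg Subtype.val he
    rw [hσ, phi_coe] at h1
    change psi x (pr v y) = pr v y at h1
    rw [psi_pr (C.vc x (C.AS hxA)), pr_eq_iff hv.sq] at h1
    rcases h1 with h1 | h1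
    · exact hx1 (C.A_semi hxA hya hyb h1)
    · have h2 : (v * x) y = y := by
        simp only [Perm.mul_apply, h1, hv.app]
      have h3 := C.A_semi (A.mul_mem C.vA hxA) hya hyb h2
      have h4 : x = v⁻¹ := eq_inv_of_mul_eq_one_right h3
      exact hxv (by rw [h4, invol_inv hv.sq])
  have hfp : Fintype.card (Function.fixedPoints σ) = 0 := by
    rw [Fintype.card_eq_zero_iff]
    exact ⟨fun s => hσfix s.1 s.2⟩
  have hsgn := sign_of_pow_two_eq_one hσ2
  rw [hfp, Nat.sub_zero, Fintype.card_coe] at hsgn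
  have hpar : Even (PP v a b).card := by
    have h1 : σ * σ = 1 := by rw [← pow_two]; exact hσ2
    have h2 := card_fx_modEq h1
    have h3 : fx σ = ∅ := by
      ext s
      simp [hσfix s]
    rw [h3, Fintype.card_coe] at h2
    unfold Nat.ModEq at h2
    simp only [Finset.card_empty, Nat.zero_mod] at h2
    exact Nat.even_iff.mpr h2.symm
  obtain ⟨m, hm⟩ := hpar
  have hmo : Odd m := by
    by_contra hne
    rw [Nat.not_odd_iff_even] at hne
    obtain ⟨l, hl⟩ := hne
    exact h8 ⟨l, by omega⟩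
  have hsgn' : sign σ = -1 := by
    rw [hsgn, show (PP v a b).card / 2 = m by omega]
    exact hmo.neg_one_pow
  -- the index-two subgroup
  set ε : ↥(EE X v a b) →* ℤˣ := sign.comp (phi X v a b) with hε
  have hεx : ε ⟨x, hxE⟩ = -1 := hsgn'
  have hEc := card_eq_two_mul_ker ε hεx
  set J : Subgroup (Perm Ω) := ε.ker.map (EE X v a b).subtype with hJ
  have hJc : Nat.card J = Nat.card ε.ker :=
    (Nat.card_congr (ε.ker.equivMapOfInjective _ (EE X v a b).subtype_injective).toEquiv).symm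
  have hJmem : ∀ {e : Perm Ω} (he : e ∈ EE X v a b), ε ⟨e, he⟩ = 1 → e ∈ J := by
    intro e he h1
    exact ⟨⟨e, he⟩, h1, rfl⟩
  have hvJ : v ∈ J := by
    apply hJmem hvE
    have h1 : phi X v a b ⟨v, hvE⟩ = 1 := by
      ext s : 1
      apply Subtype.ext
      rw [phi_coe]
      obtain ⟨s, hs⟩ := s
      obtain ⟨y, hya, hyb, rfl⟩ := mem_PP.mp hs
      change psi v (pr v y) = pr v y
      rw [psi_pr rfl, pr_eq_iff hv.sq]
      exact Or.inr rfl
    rw [hε, MonoidHom.comp_apply, h1, map_one]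
  -- elements fixing `c`
  have hstab : ptS (EE X v a b) {c} = ptS J {c} := by
    ext e
    constructor
    · rintro ⟨he, hec⟩
      have hec' : e c = c := hec c (by simp)
      refine ⟨?_, hec⟩
      apply hJmem he
      obtain ⟨e1, e2, e3, e4⟩ := mem_EE.mp he
      have hodd := h.odd3 e1 e2 e3 hec' C.hab hca.symm hcb.symm
      have h1 : (ε ⟨e, he⟩) ^ orderOf e = 1 := by
        rw [← map_pow]
        have : (⟨e, he⟩ : ↥(EE X v a b)) ^ orderOf e = 1 := by
          apply Subtype.ext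
          simp [pow_orderOf_eq_one]
        rw [this, map_one]
      rcases Int.units_eq_one_or (ε ⟨e, he⟩) with h2 | h2
      · exact h2
      · rw [h2, hodd.neg_one_pow] at h1
        exact absurd h1 (by decide)
    · rintro ⟨⟨e', -, rfl⟩, hec⟩
      exact ⟨e'.2, hec⟩
  have hoE : orb (EE X v a b) c = (Finset.univ : Finset Ω) \ {a, b} := by
    ext y
    rw [mem_orb, Finset.mem_sdiff]
    simp only [Finset.mem_univ, true_and, Finset.mem_insert, Finset.mem_singleton, not_or]
    constructor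
    · rintro ⟨e, he, rfl⟩
      obtain ⟨e1, e2, e3, e4⟩ := mem_EE.mp he
      exact ⟨fun hh => hca (e.injective (hh.trans e2.symm)),
        fun hh => hcb (e.injective (hh.trans e3.symm))⟩
    · rintro ⟨h1, h2⟩
      obtain ⟨g, hg, g1, g2, g3, g4⟩ := h.E_trans hv hca hcb h1 h2
      exact ⟨g, mem_EE.mpr ⟨hg, g1, g2, g3⟩, g4⟩
  have hc1 := card_eq_orb_mul (EE X v a b) c
  have hc2 := card_eq_orb_mul J c
  rw [hoE, Finset.card_sdiff_of_subset (Finset.subset_univ _), Finset.card_pair C.hab,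
    Finset.card_univ, hstab, hEc, ← hJc, hc2] at hc1
  have hspos : 0 < Nat.card (ptS J {c}) := Nat.card_pos
  have hO : 2 * (orb J c).card = Fintype.card Ω - 2 := by
    have h1 : 2 * (orb J c).card * Nat.card (ptS J {c}) =
        (Fintype.card Ω - 2) * Nat.card (ptS J {c}) := by
      rw [← hc1]; ring
    exact Nat.eq_of_mul_eq_mul_right hspos h1
  set O := orb J c with hOdef
  have hOsub : O ⊆ (Finset.univ : Finset Ω) \ {a, b} := by
    rw [← hoE]
    intro y hy
    obtain ⟨e, he, rfl⟩ := mem_orb.mp hy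
    obtain ⟨e', -, rfl⟩ := he
    exact mem_orb.mpr ⟨e', e'.2, rfl⟩
  have hOnot : ∃ e, e ≠ a ∧ e ≠ b ∧ e ∉ O := by
    by_contra hcon
    push Not at hcon
    have h1 : (Finset.univ : Finset Ω) \ {a, b} ⊆ O := by
      intro y hy
      simp only [Finset.mem_sdiff, Finset.mem_univ, true_and, Finset.mem_insert,
        Finset.mem_singleton, not_or] at hy
      exact hcon y hy.1 hy.2
    have h2 := Finset.card_le_card h1
    rw [Finset.card_sdiff_of_subset (Finset.subset_univ _), Finset.card_pair C.hab,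
      Finset.card_univ] at h2
    omega
  obtain ⟨e, hea, heb, heO⟩ := hOnot
  have hcO : c ∈ O := mem_orb.mpr ⟨1, J.one_mem, rfl⟩
  have hvcO : v c ∈ O := mem_orb.mpr ⟨v, hvJ, rfl⟩
  have hOw : ∃ w ∈ O, w ≠ c ∧ w ≠ v c := by
    by_contra hcon
    push Not at hcon
    have h1 : O ⊆ {c, v c} := by
      intro y hy
      by_cases h2 : y = c
      · simp [h2]
      · simp [hcon y hy h2]
    have h2 := Finset.card_le_card h1
    have h3 : ({c, v c} : Finset Ω).card ≤ 2 := Finset.card_le_two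
    omega
  obtain ⟨w, hwO, hwc, hwvc⟩ := hOw
  have hwab := hOsub hwO
  simp only [Finset.mem_sdiff, Finset.mem_univ, true_and, Finset.mem_insert,
    Finset.mem_singleton, not_or] at hwab
  have hec : e ≠ c := fun hh => heO (hh ▸ hcO)
  have hevc : e ≠ v c := fun hh => heO (hh ▸ hvcO)
  obtain ⟨g, hg, ga, gb, gc, gv, gw⟩ := h.E_pairs hv hca hcb hea heb hwab.1 hwab.2 hec hevc hwc hwvc
  have hgJ : g ∈ J := by
    have h1 : g ∈ ptS (EE X v a b) {c} := ⟨mem_EE.mpr ⟨hg, ga, gb, gv⟩, fun y hy => by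
      rw [Finset.mem_singleton] at hy
      subst hy
      exact gc⟩
    rw [hstab] at h1
    exact h1.1
  have hgwO : g w ∈ O := by
    obtain ⟨j, hj, rfl⟩ := mem_orb.mp hwO
    exact mem_orb.mpr ⟨g * j, J.mul_mem hgJ hj, rfl⟩
  rcases gw with gw | gw
  · exact heO (gw ▸ hgwO)
  · apply heO
    rw [gw] at hgwO
    obtain ⟨j, hj, hjc⟩ := mem_orb.mp hgwO
    refine mem_orb.mpr ⟨v * j, J.mul_mem hvJ hj, ?_⟩
    rw [Perm.mul_apply, hjc, hv.app]

end Cfg

end EH

/-- Theorem E. -/
theorem theoremE {X : Subgroup (Perm Ω)} (hT : TT X 4) (hI : NoInv X 4)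
    (hev : Even (Fintype.card Ω)) (hn : 4 < Fintype.card Ω) : Fintype.card Ω = 6 := by
  by_contra hne
  have h : EH X := ⟨hT, hI, hev⟩
  obtain ⟨c, hc⟩ := hev
  obtain ⟨a, b, A, S, v, z, c', d, C⟩ := h.exists_cfg (by omega)
  exact C.false_of

end Cfsg.Agent.LW
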