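import Cfsg.Agent.Lib.LW.Homog2

/-!
# Livingstone–Wagner: excluding the small numerical exceptions
-/

set_option autoImplicit false
set_option linter.unusedSectionVars false
set_option linter.unusedVariables false

namespace Cfsg.Agent.LW

open Equiv Equiv.Perm
open scoped Pointwise

universe u

variable {Ω : Type u} [Fintype Ω] [DecidableEq Ω]

lemma Hg_of_TT {G : Subgroup (Perm Ω)} {h : ℕ} (hT : TT G h) : Hg G h :=
  fun _ _ hs ht => exists_conj_image hT hs ht

/-- The sign of an involution in terms of its number of fixed points. -/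
lemma sign_invol {j : Perm Ω} (hj : j * j = 1) :
    sign j = (-1) ^ ((Fintype.card Ω - (fx j).card) / 2) := by
  have h1 : j ^ 2 = 1 := by rw [pow_two, hj]
  have h2 := sign_of_pow_two_eq_one h1
  have h3 : Fintype.card (Function.fixedPoints j) = (fx j).card := by
    apply Fintype.card_of_subtype
    intro x
    simp [Function.mem_fixedPoints, Function.IsFixedPt]
  rw [h3] at h2
  exact h2

/-- An odd normal subgroup of a group which is 2-transitive on an even set acts trivially. -/
lemma odd_normal_trivial {W N : Subgroup (Perm Ω)} {Y : Finset Ω} (hNW : N ≤ W)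
    (hnorm : ∀ g ∈ W, ∀ ν ∈ N, g * ν * g⁻¹ ∈ N) (hYW : ∀ g ∈ W, ∀ y ∈ Y, g y ∈ Y)
    (h2 : ∀ c ∈ Y, ∀ c' ∈ Y, c ≠ c' → ∀ y ∈ Y, y ≠ c → ∃ g ∈ W, g c = c ∧ g c' = y)
    (hev : Even Y.card) (hodd : Odd (Nat.card N)) : ∀ ν ∈ N, ∀ c ∈ Y, ν c = c := by
  intro ν hν c hc
  by_contra hne
  have hc' : ν c ∈ Y := hYW ν (hNW hν) c hc
  have horb : orb N c = Y := by
    ext y
    rw [mem_orb]
    constructor
    · rintro ⟨q, hq, rfl⟩
      exact hYW q (hNW hq) c hc
    · intro hy
      by_cases hyc : y = c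
      · subst hyc
        exact ⟨1, N.one_mem, rfl⟩
      · obtain ⟨g, hg, g1, g2⟩ := h2 c hc (ν c) hc' (Ne.symm hne) y hy hyc
        refine ⟨g * ν * g⁻¹, hnorm g hg ν hν, ?_⟩
        have i1 : g⁻¹ c = c := by rw [Perm.inv_eq_iff_eq, g1]
        simp only [Perm.mul_apply, i1, g2]
  have h1 := card_eq_orb_mul N c
  rw [horb] at h1
  rw [h1] at hodd
  have h3 := (Nat.odd_mul.mp hodd).1
  exact (Nat.not_even_iff_odd.mpr h3) hev

namespace RH

variable {G : Subgroup (Perm Ω)} {h : ℕ}

/-- An element of order 3 in `U` gives an element of order 3 in a setwise stabiliser. -/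
theorem three_dvd (R : RH G h) (hh : 2 ≤ h) {s : Finset Ω} (hs : s.card = h)
    (hu : Nat.card (ptS G s) = 3) :
    ∃ Γ : Finset Ω, Γ.card = h + 1 ∧ 3 ∣ Nat.card (G ⊓ stS Γ : Subgroup (Perm Ω)) := by
  haveI : Fact (Nat.Prime 3) := ⟨by norm_num⟩
  obtain ⟨x, hx⟩ := exists_prime_orderOf_dvd_card' (G := ptS G s) 3 (by rw [hu])
  set g := (x : Perm Ω) with hg
  have hgU : g ∈ ptS G s := x.2
  have hog : orderOf g = 3 := by rw [hg, Subgroup.orderOf_coe]; exact hx
  have hg3 : g * g * g = 1 := by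
    have := pow_orderOf_eq_one g
    rw [hog] at this
    simpa [pow_succ, mul_assoc] using this
  have hg1 : g ≠ 1 := by
    rintro e
    rw [e, orderOf_one] at hog
    omega
  have hg2 : g * g ≠ 1 := by
    intro e
    have h1 : g ^ 2 = 1 := by rw [pow_two, e]
    have h2 := orderOf_dvd_of_pow_eq_one h1
    rw [hog] at h2
    omega
  obtain ⟨y, hy⟩ := EH.exists_point_not_in s (by have := R.n; omega)
  have hout : ∀ z, z ∉ s → g z ∉ s := by
    intro z hz hz'
    apply hz
    have := hgU.2 _ hz'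
    rwa [g.injective this] at hz'
  have h1 : g y ≠ y := fun e => hg1 (R.semi hs hgU hy e)
  have h2 : g (g y) ≠ g y := fun e => h1 (g.injective e)
  have h3 : g (g y) ≠ y := by
    intro e
    have hgg : g * g ∈ ptS G s := (ptS G s).mul_mem hgU hgU
    exact hg2 (R.semi hs hgg hy e)
  have h4 : g (g (g y)) = y := by
    have := congrArg (fun f : Perm Ω => f y) hg3
    simpa using this
  obtain ⟨t', ht's, ht'⟩ := Finset.exists_subset_card_eq (s := s) (n := h - 2) (by omega)
  set T : Finset Ω := {y, g y, g (g y)} with hT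
  have hTc : T.card = 3 := by
    rw [hT, Finset.card_insert_of_notMem (by
      simp only [Finset.mem_insert, Finset.mem_singleton, not_or]
      exact ⟨h1.symm, h3.symm⟩), Finset.card_insert_of_notMem (by
      simp only [Finset.mem_singleton]
      exact h2.symm), Finset.card_singleton]
  have hdisj : Disjoint T t' := by
    rw [Finset.disjoint_left]
    intro z hz hz'
    have hzs := ht's hz'
    simp only [hT, Finset.mem_insert, Finset.mem_singleton] at hz
    rcases hz with rfl | rfl | rfl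
    · exact hy hzs
    · exact hout _ hy hzs
    · exact hout _ (hout _ hy) hzs
  refine ⟨T ∪ t', by rw [Finset.card_union_of_disjoint hdisj, hTc, ht']; omega, ?_⟩
  have hst : g ∈ stS (T ∪ t') := by
    apply stS_of_maps
    intro z hz
    rw [Finset.mem_union] at hz ⊢
    rcases hz with hz | hz
    · left
      simp only [hT, Finset.mem_insert, Finset.mem_singleton] at hz ⊢
      rcases hz with rfl | rfl | rfl
      · simp
      · simp
      · simp [h4]
    · right
      rw [hgU.2 z (ht's hz)]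
      exact hz
  have h5 := orderOf_dvd_natCard (⟨g, hgU.1, hst⟩ : ↥(G ⊓ stS (T ∪ t') : Subgroup (Perm Ω)))
  have h6 : orderOf (⟨g, hgU.1, hst⟩ : ↥(G ⊓ stS (T ∪ t') : Subgroup (Perm Ω))) = 3 := by
    rw [← hog, ← Subgroup.orderOf_coe]
  rwa [h6] at h5

/-- There is no such group of degree 7 with trivial three-point stabilisers. -/
theorem no_7 (R : RH G 3) (hn : Fintype.card Ω = 7) {s : Finset Ω} (hs : s.card = 3)
    (hu : Nat.card (ptS G s) = 1) : False := by
  obtain ⟨x, y, z, hxy, hxz, hyz, rfl⟩ := Finset.card_eq_three.mp hs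
  set W := ptS G {x} with hW
  have hT := R.T
  have h1 : Nat.card W = 6 * (5 * 1) := by
    have e1 := card_ptS_insert hT (s := {x}) (x := y) (by simp [hxy.symm]) (by simp)
    have e2 := card_ptS_insert hT (s := insert y {x}) (x := z)
      (by simp [hxz.symm, hyz.symm]) (by
        rw [Finset.card_insert_of_notMem (by simp [hxy.symm]), Finset.card_singleton]; omega)
    rw [Finset.card_insert_of_notMem (by simp [hxy.symm]), Finset.card_singleton] at e2
    rw [Finset.card_singleton] at e1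
    have e3 : Nat.card (ptS G (insert z (insert y {x}))) = Nat.card (ptS G {x, y, z}) := by
      apply (Hg_of_TT hT).card_ptS
      · rw [Finset.card_insert_of_notMem (by simp [hxz.symm, hyz.symm]),
          Finset.card_insert_of_notMem (by simp [hxy.symm]), Finset.card_singleton]
      · exact hs
    rw [hW, e1, e2, e3, hu, hn]
  obtain ⟨t, ht⟩ := exists_prime_orderOf_dvd_card' (G := W) 2 (by rw [h1]; norm_num)
  have ht2 : (t : Perm Ω) * t = 1 := by
    have := pow_orderOf_eq_one t
    rw [ht, pow_two] at this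
    exact congrArg Subtype.val this
  have ht1 : (t : Perm Ω) ≠ 1 := by
    intro e
    have : t = 1 := Subtype.ext e
    rw [this, orderOf_one] at ht
    omega
  have htx : (t : Perm Ω) x = x := t.2.2 x (by simp)
  have hI := R.noInv
  have hfxc : (fx (t : Perm Ω)).card = 1 := by
    have h2 : (fx (t : Perm Ω)).card < 3 := by
      by_contra h3
      exact ht1 (hI _ t.2.1 ht2 (by omega))
    have h3 := card_fx_modEq ht2
    rw [hn] at h3
    unfold Nat.ModEq at h3
    omega
  have hsgn : sign (t : Perm Ω) = -1 := by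
    rw [sign_invol ht2, hfxc, hn]
    decide
  set ε : ↥W →* ℤˣ := sign.comp W.subtype with hε
  have hεt : ε t = -1 := hsgn
  have hcard := card_eq_two_mul_ker ε hεt
  rw [h1] at hcard
  set N : Subgroup (Perm Ω) := ε.ker.map W.subtype with hN
  have hNc : Nat.card N = Nat.card ε.ker :=
    (Nat.card_congr (ε.ker.equivMapOfInjective _ W.subtype_injective).toEquiv).symm
  have hNc' : Nat.card N = 15 := by omega
  have hNW : N ≤ W := Subgroup.map_subtype_le _
  have hNsign : ∀ ν ∈ N, sign ν = 1 := by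
    rintro _ ⟨e, he, rfl⟩
    exact he
  have hY : ∀ g ∈ W, ∀ w ∈ ({x}ᶜ : Finset Ω), g w ∈ ({x}ᶜ : Finset Ω) := by
    intro g hg w hw
    simp only [Finset.mem_compl, Finset.mem_singleton] at hw ⊢
    intro e
    apply hw
    have h5 := hg.2 x (by simp)
    exact g.injective (e.trans h5.symm)
  have hcY : ({x}ᶜ : Finset Ω).card = 6 := by
    rw [Finset.card_compl, Finset.card_singleton, hn]
  have key := odd_normal_trivial (W := W) (N := N) (Y := {x}ᶜ) hNW (by
    intro g hg ν hν
    refine ⟨⟨g * ν * g⁻¹, W.mul_mem (W.mul_mem hg (hNW hν)) (W.inv_mem hg)⟩, ?_, rfl⟩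
    change sign (g * ν * g⁻¹) = 1
    rw [Perm.sign_mul, Perm.sign_mul, Perm.sign_inv, hNsign ν hν, mul_one]
    rcases Int.units_eq_one_or (sign g) with e | e <;> rw [e] <;> rfl) hY (by
    intro c hc c' hc' hcc' w hw hwc
    simp only [Finset.mem_compl, Finset.mem_singleton] at hc hc' hw
    by_cases hwc' : w = c'
    · subst hwc'
      obtain ⟨g, hg, hgσ⟩ := hT 1 {x, c, w} Finset.card_le_three
      refine ⟨g, ⟨hg, ?_⟩, ?_, ?_⟩
      · intro v hv
        rw [Finset.mem_singleton] at hv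
        subst hv
        exact hgσ _ (by simp)
      · exact hgσ _ (by simp)
      · exact hgσ _ (by simp)
    · obtain ⟨g, hg, hgσ⟩ := hT (swap c' w) {x, c, c'} Finset.card_le_three
      have hgx : g x = x := by
        rw [hgσ _ (by simp), swap_apply_of_ne_of_ne (Ne.symm hc') (Ne.symm hw)]
      refine ⟨g, ⟨hg, ?_⟩, ?_, ?_⟩
      · intro v hv
        rw [Finset.mem_singleton] at hv
        subst hv
        exact hgx
      · rw [hgσ _ (by simp), swap_apply_of_ne_of_ne hcc' (Ne.symm hwc)]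
      · rw [hgσ _ (by simp), swap_apply_left]) (by rw [hcY]; decide) (by rw [hNc']; decide)
  have hbot : N = ⊥ := by
    rw [eq_bot_iff]
    intro ν hν
    rw [Subgroup.mem_bot]
    ext w
    by_cases hw : w = x
    · subst hw
      simpa using (hNW hν).2 w (by simp)
    · simpa using key ν hν w (by simpa using hw)
  rw [hbot, Subgroup.card_bot] at hNc'
  omega

/-- There is no such group of degree 24 with three-point stabilisers of order 7. -/
theorem no_24 (R : RH G 3) (hn : Fintype.card Ω = 24) {s : Finset Ω} (hs : s.card = 3)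
    (hu : Nat.card (ptS G s) = 7) : False := by
  obtain ⟨a, b, c, hab, hac, hbc, rfl⟩ := Finset.card_eq_three.mp hs
  set W := ptS G {b, c} with hW
  have hT := R.T
  have h1 : Nat.card W = 22 * 7 := by
    have e1 := card_ptS_insert hT (s := {b, c}) (x := a) (by simp [hab, hac]) (by
      rw [Finset.card_pair hbc]; omega)
    rw [Finset.card_pair hbc, hu, hn] at e1
    exact e1
  haveI h11 : Fact (Nat.Prime 11) := ⟨by norm_num⟩
  haveI h7 : Fact (Nat.Prime 7) := ⟨by norm_num⟩
  obtain ⟨P⟩ : Nonempty (Sylow 11 ↥W) := inferInstance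
  obtain ⟨e, he⟩ := IsPGroup.iff_card.mp P.isPGroup'
  have hPd : Nat.card P ∣ Nat.card W := Subgroup.card_subgroup_dvd_card _
  have hPi := P.card_mul_index
  have hni := P.not_dvd_index
  have hPc : Nat.card P = 11 := by
    rw [he] at hPd hPi ⊢
    rw [h1] at hPd hPi
    have he2 : e ≠ 0 := by
      rintro rfl
      apply hni
      simp only [pow_zero, one_mul] at hPi
      rw [hPi]
      norm_num
    have he3 : e < 2 := by
      by_contra h2
      have h3 : 11 ^ 2 ∣ 11 ^ e := pow_dvd_pow _ (by omega)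
      have h4 := h3.trans hPd
      norm_num at h4
    have : e = 1 := by omega
    rw [this]; norm_num
  have hidx : (P : Subgroup ↥W).index = 14 := by
    rw [hPc, h1] at hPi
    omega
  have hcS : Nat.card (Sylow 11 ↥W) = 1 := by
    have h2 := card_sylow_modEq_one 11 ↥W
    have h3 := P.card_dvd_index
    rw [hidx] at h3
    have h4 := Nat.le_of_dvd (by norm_num) h3
    unfold Nat.ModEq at h2
    set m := Nat.card (Sylow 11 ↥W) with hm
    interval_cases m <;> first | rfl | omega
  haveI hsub : Subsingleton (Sylow 11 ↥W) := (Nat.card_eq_one_iff_unique.mp hcS).1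
  haveI hPn : (P : Subgroup ↥W).Normal := P.normal_of_subsingleton
  -- the element of order 7
  obtain ⟨x, hx⟩ := exists_prime_orderOf_dvd_card' (G := ptS G {a, b, c}) 7 (by rw [hu])
  set g := (x : Perm Ω) with hg
  have hgU : g ∈ ptS G {a, b, c} := x.2
  have hog : orderOf g = 7 := by rw [hg, Subgroup.orderOf_coe]; exact hx
  have hg1 : g ≠ 1 := by
    rintro e'
    rw [e', orderOf_one] at hog
    omega
  have hgW : g ∈ W := ⟨hgU.1, fun y hy => hgU.2 y (by
    simp only [Finset.mem_insert, Finset.mem_singleton] at hy ⊢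
    tauto)⟩
  set gh : ↥W := ⟨g, hgW⟩ with hgh
  have hgh7 : gh ^ 7 = 1 := by
    apply Subtype.ext
    simp only [hgh, SubmonoidClass.mk_pow, OneMemClass.coe_one]
    rw [← hog, pow_orderOf_eq_one]
  classical
  haveI : Fintype ↥(P : Subgroup ↥W) := Fintype.ofFinite _
  set σ : Perm ↥(P : Subgroup ↥W) := MulAut.toPerm ↥(P : Subgroup ↥W) (MulAut.conjNormal gh) with hσ
  have hσ7 : σ ^ 7 ^ 1 = 1 := by
    rw [hσ, ← map_pow, ← map_pow, pow_one, hgh7, map_one, map_one]
  have hmod := card_compl_support_modEq hσ7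
  have hPc' : Fintype.card ↥(P : Subgroup ↥W) = 11 := by
    rw [← Nat.card_eq_fintype_card]; exact hPc
  rw [hPc'] at hmod
  unfold Nat.ModEq at hmod
  have hone : 1 < σ.supportᶜ.card := by omega
  obtain ⟨q, hq, hq1⟩ := Finset.exists_mem_ne hone 1
  have hσq : σ q = q := by simpa using hq
  have hconj : gh * (q : ↥W) * gh⁻¹ = (q : ↥W) := by
    have h2 := congrArg Subtype.val hσq
    rw [hσ] at h2
    exact (MulAut.conjNormal_apply gh q).symm.trans h2
  set qh : Perm Ω := ((q : ↥W) : Perm Ω) with hqh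
  have hcomm : g * qh = qh * g := by
    have h2 := congrArg Subtype.val hconj
    have h3 : g * qh * g⁻¹ = qh := h2
    calc g * qh = g * qh * g⁻¹ * g := by group
      _ = qh * g := by rw [h3]
  have hqb : qh b = b := (q : ↥W).2.2 b (by simp)
  have hqc : qh c = c := (q : ↥W).2.2 c (by simp)
  have hga : g a = a := hgU.2 a (by simp)
  have hgqa : g (qh a) = qh a := by
    have := congrArg (fun f : Perm Ω => f a) hcomm
    simp only [Perm.mul_apply, hga] at this
    exact this
  have hqa : qh a = a := by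
    by_contra hne
    have h2 : qh a ∉ ({a, b, c} : Finset Ω) := by
      simp only [Finset.mem_insert, Finset.mem_singleton, not_or]
      exact ⟨hne, fun e' => hab (qh.injective (e'.trans hqb.symm)),
        fun e' => hac (qh.injective (e'.trans hqc.symm))⟩
    exact hg1 (R.semi hs hgU h2 hgqa)
  have hqU : qh ∈ ptS G {a, b, c} := ⟨(q : ↥W).2.1, fun y hy => by
    simp only [Finset.mem_insert, Finset.mem_singleton] at hy
    rcases hy with rfl | rfl | rfl
    · exact hqa
    · exact hqb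
    · exact hqc⟩
  have hq7 : qh ^ 7 = 1 := by
    have h2 := pow_card_eq_one' (G := ↥(ptS G {a, b, c})) (x := ⟨qh, hqU⟩)
    rw [hu] at h2
    have := congrArg Subtype.val h2
    simpa using this
  have hq11 : qh ^ 11 = 1 := by
    have h2 := pow_card_eq_one' (G := ↥(P : Subgroup ↥W)) (x := q)
    rw [hPc] at h2
    have := congrArg (fun r : ↥(P : Subgroup ↥W) => (((r : ↥W) : Perm Ω))) h2
    simpa using this
  have hq1' : qh = 1 := by
    have h2 : orderOf qh ∣ 7 := orderOf_dvd_of_pow_eq_one hq7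
    have h3 : orderOf qh ∣ 11 := orderOf_dvd_of_pow_eq_one hq11
    have h4 : orderOf qh ∣ 1 := by
      have := Nat.dvd_gcd h2 h3
      simpa using this
    exact orderOf_eq_one_iff.mp (Nat.dvd_one.mp h4)
  apply hq1
  apply Subtype.ext
  apply Subtype.ext
  exact hq1'

end RH

set_option maxRecDepth 100000 in
lemma arith3 : ∀ r ∈ Finset.Icc 2 24, ∀ u ∈ Finset.Icc 1 31, r ∣ 24 → (r * u - 1) * r ∣ 120 →
    u % 2 = 1 → (r = 2 ∧ u = 1) ∨ (r = 2 ∧ u = 3) ∨ (r = 3 ∧ u = 1) ∨ (r = 3 ∧ u = 3) ∨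
      (r = 3 ∧ u = 7) ∨ (r = 4 ∧ u = 1) ∨ (r = 6 ∧ u = 1) := by
  decide

set_option maxRecDepth 100000 in
lemma arith2 : ∀ r ∈ Finset.Icc 2 6, ∀ u ∈ Finset.Icc 1 13, r ∣ 6 → (r * u - 1) * r ∣ 24 →
    u % 2 = 1 → (r = 2 ∧ u = 1) ∨ (r = 3 ∧ u = 1) ∨ (r = 3 ∧ u = 3) := by
  decide

set_option maxRecDepth 100000 in
lemma arith1 : ∀ r ∈ Finset.Icc 2 2, ∀ u ∈ Finset.Icc 1 4, r ∣ 2 → (r * u - 1) * r ∣ 6 →
    u % 2 = 1 → (r = 2 ∧ u = 1) := by
  decide

namespace RH

variable {G : Subgroup (Perm Ω)} {h : ℕ}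

/-- `U` is not transitive off `s`. -/
lemma card_ne (R : RH G h) {s : Finset Ω} (hs : s.card = h) :
    Nat.card (ptS G s) ≠ Fintype.card Ω - h := by
  intro hc
  obtain ⟨y, hy⟩ := EH.exists_point_not_in s (by have := R.n; omega)
  apply R.nt
  refine TT_succ_of_transitive R.T (by have := R.n; omega) hs hy ?_
  have h2 := card_eq_orb_mul (ptS G s) y
  have h3 : ptS (ptS G s) {y} = ⊥ := by
    rw [ptS_ptS_insert]
    exact R.bot (by rw [Finset.card_insert_of_notMem hy, hs])
  rw [h3, Subgroup.card_bot, mul_one, hc] at h2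
  have hsub : orb (ptS G s) y ⊆ sᶜ := by
    intro z hz
    obtain ⟨g, hg, rfl⟩ := mem_orb.mp hz
    rw [Finset.mem_compl]
    intro h4
    apply hy
    have := hg.2 _ h4
    rwa [g.injective this] at h4
  have heq : orb (ptS G s) y = sᶜ := by
    apply Finset.eq_of_subset_of_card_le hsub
    rw [Finset.card_compl, hs, ← h2]
  intro x hx
  rw [heq, Finset.mem_compl]
  exact hx

/-- `U` has odd order. -/
lemma odd_card (R : RH G h) {s : Finset Ω} (hs : s.card = h) : Odd (Nat.card (ptS G s)) :=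
  card_odd_of_forall_odd _ fun g hg => odd_order_of_fix R.noInv hg.1 hs.ge hg.2

/-- The small cases. -/
theorem small (R : RH G h) (hh1 : 1 ≤ h) (hh : h ≤ 3) (hlt : h + 2 < Fintype.card Ω) :
    (Fintype.card Ω = 5 ∧ h + 2 = 4 ∧ Nat.card G = 20) ∨
    (Fintype.card Ω = 6 ∧ h + 2 = 5 ∧ Nat.card G = 120) ∨
    (Fintype.card Ω = 9 ∧ h + 2 = 5 ∧ (Nat.card G = 504 ∨ Nat.card G = 1512)) := by
  obtain ⟨s, -, hs⟩ := Finset.exists_subset_card_eq (s := (Finset.univ : Finset Ω)) (n := h)
    (by simp; omega)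
  obtain ⟨r, a, b, hr, hra, hrb, hA, haΓ⟩ := R.count hs
  set u := Nat.card (ptS G s) with hu
  set n := Fintype.card Ω with hn
  have hupos : 0 < u := Nat.card_pos
  have hne := R.card_ne hs
  have huo : u % 2 = 1 := Nat.odd_iff.mp (R.odd_card hs)
  have hr2 : 2 ≤ r := by
    by_contra hcon
    have hr' : r = 0 ∨ r = 1 := by omega
    rcases hr' with rfl | rfl
    · simp at hr; omega
    · simp at hr; exact hne hr
  have hn' : n = h + r * u := by omega
  have h1' : n - h - 1 = r * u - 1 := by omega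
  rw [h1'] at hrb
  have hrle : r ≤ (h + 1).factorial := Nat.le_of_dvd (Nat.factorial_pos _) ⟨a, hra.symm⟩
  have hdv : (r * u - 1) * r ∣ (h + 2).factorial := ⟨b, hrb.symm⟩
  have hle2 : (r * u - 1) * r ≤ (h + 2).factorial := Nat.le_of_dvd (Nat.factorial_pos _) hdv
  have hule : 2 * (2 * u - 1) ≤ (r * u - 1) * r := by
    have h3 : 2 * u ≤ r * u := Nat.mul_le_mul_right u hr2
    calc 2 * (2 * u - 1) = (2 * u - 1) * 2 := by ring
      _ ≤ (r * u - 1) * r := Nat.mul_le_mul (by omega) hr2
  have hrd : r ∣ (h + 1).factorial := ⟨a, hra.symm⟩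
  interval_cases h
  · -- h = 1
    simp only [Nat.factorial] at hrd hdv hle2 hrle hra hrb
    norm_num at hrd hdv hle2 hrle hra hrb
    obtain ⟨rfl, hu1⟩ := arith1 r (Finset.mem_Icc.mpr ⟨hr2, by omega⟩) u
      (Finset.mem_Icc.mpr ⟨hupos, by omega⟩) hrd hdv huo
    rw [hu1] at hn'
    omega
  · -- h = 2
    simp only [Nat.factorial] at hrd hdv hle2 hrle hra hrb
    norm_num at hrd hdv hle2 hrle hra hrb
    rcases arith2 r (Finset.mem_Icc.mpr ⟨hr2, by omega⟩) u
      (Finset.mem_Icc.mpr ⟨hupos, by omega⟩) hrd hdv huo with ⟨rfl, hu1⟩ | ⟨rfl, hu1⟩ | ⟨rfl, hu1⟩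
    · rw [hu1] at hn'; omega
    · rw [hu1] at hn' hA
      left
      have hn5 : n = 5 := by omega
      refine ⟨hn5, rfl, ?_⟩
      rw [hA, hn5]
      rfl
    · exfalso
      have ha2 : a = 2 := by omega
      obtain ⟨Γ, hΓ, h3⟩ := R.three_dvd (by omega) hs hu1
      rw [haΓ Γ hΓ, ha2] at h3
      omega
  · -- h = 3
    simp only [Nat.factorial] at hrd hdv hle2 hrle hra hrb
    norm_num at hrd hdv hle2 hrle hra hrb
    rcases arith3 r (Finset.mem_Icc.mpr ⟨hr2, by omega⟩) u
      (Finset.mem_Icc.mpr ⟨hupos, by omega⟩) hrd hdv huo with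
      ⟨rfl, hu1⟩ | ⟨rfl, hu1⟩ | ⟨rfl, hu1⟩ | ⟨rfl, hu1⟩ | ⟨rfl, hu1⟩ | ⟨rfl, hu1⟩ | ⟨rfl, hu1⟩
    · rw [hu1] at hn'; omega
    · rw [hu1] at hn' hA
      right; right
      have hn9 : n = 9 := by omega
      refine ⟨hn9, rfl, Or.inr ?_⟩
      rw [hA, hn9]
      rfl
    · rw [hu1] at hn' hA
      right; left
      have hn6 : n = 6 := by omega
      refine ⟨hn6, rfl, ?_⟩
      rw [hA, hn6]
      rfl
    · exfalso
      have ha8 : a = 8 := by omega
      obtain ⟨Γ, hΓ, h3⟩ := R.three_dvd (by omega) hs hu1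
      rw [haΓ Γ hΓ, ha8] at h3
      omega
    · exfalso
      rw [hu1] at hn'
      exact R.no_24 (by omega) hs hu1
    · exfalso
      rw [hu1] at hn'
      exact R.no_7 (by omega) hs hu1
    · rw [hu1] at hn' hA
      right; right
      have hn9 : n = 9 := by omega
      refine ⟨hn9, rfl, Or.inl ?_⟩
      rw [hA, hn9]
      rfl

end RH

end Cfsg.Agent.LW
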