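import Cfsg.Agent.Lib.LW.Main

/-!
# Livingstone–Wagner: homogeneous groups
-/

set_option autoImplicit false
set_option linter.unusedSectionVars false
set_option linter.unusedVariables false

namespace Cfsg.Agent.LW

open Equiv Equiv.Perm
open scoped Pointwise

universe u

variable {Ω : Type u} [Fintype Ω] [DecidableEq Ω]

/-- `k`-homogeneity in handy form. -/
def Hg (G : Subgroup (Perm Ω)) (k : ℕ) : Prop :=
  ∀ s t : Finset Ω, s.card = k → t.card = k → ∃ g ∈ G, s.image g = t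

lemma Hg_of_isPretransitive {G : Subgroup (Perm Ω)} {k : ℕ}
    (h : MulAction.IsPretransitive G (Set.powersetCard Ω k)) : Hg G k := by
  intro s t hs ht
  obtain ⟨g, hg⟩ := h.exists_smul_eq (⟨s, hs⟩ : Set.powersetCard Ω k) ⟨t, ht⟩
  refine ⟨g, g.2, ?_⟩
  have h1 := congrArg (fun x : Set.powersetCard Ω k => (x : Finset Ω)) hg
  have h2 : ((g • (⟨s, hs⟩ : Set.powersetCard Ω k) : Set.powersetCard Ω k) : Finset Ω) = g • s :=
    Set.powersetCard.coe_smul
  simp only at h1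
  rw [h2] at h1
  rw [← h1]
  ext x
  simp [Finset.mem_smul_finset, Subgroup.smul_def, Perm.smul_def]

lemma isPretransitive_of_Hg {G : Subgroup (Perm Ω)} {k : ℕ} (h : Hg G k) :
    MulAction.IsPretransitive G (Set.powersetCard Ω k) := by
  refine ⟨fun s t => ?_⟩
  obtain ⟨g, hg, hgs⟩ := h s.1 t.1 s.2 t.2
  refine ⟨⟨g, hg⟩, ?_⟩
  apply Subtype.ext
  have h2 : ((⟨g, hg⟩ : ↥G) • s : Set.powersetCard Ω k).1 = (⟨g, hg⟩ : ↥G) • s.1 :=
    Set.powersetCard.coe_smul
  rw [h2, ← hgs]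
  ext x
  simp [Finset.mem_smul_finset, Subgroup.smul_def, Perm.smul_def]

lemma card_ptS_image {G : Subgroup (Perm Ω)} {g : Perm Ω} (hg : g ∈ G) (s : Finset Ω) :
    Nat.card (ptS G (s.image g)) = Nat.card (ptS G s) := by
  rw [← cj_ptS hg, card_cj]

lemma Hg.card_ptS {G : Subgroup (Perm Ω)} {k : ℕ} (h : Hg G k) {s t : Finset Ω} (hs : s.card = k)
    (ht : t.card = k) : Nat.card (ptS G s) = Nat.card (ptS G t) := by
  obtain ⟨g, hg, rfl⟩ := h s t hs ht
  exact (card_ptS_image hg s).symm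

/-- The partition of a set into orbits of the same length. -/
lemma dvd_card_of_orbits (K : Subgroup (Perm Ω)) (l : ℕ) (Y : Finset Ω)
    (hY : ∀ g ∈ K, ∀ x ∈ Y, g x ∈ Y) (hl : ∀ x ∈ Y, (orb K x).card = l) : l ∣ Y.card := by
  induction Y using Finset.strongInduction with
  | H Y ih =>
    by_cases hne : Y.Nonempty
    · obtain ⟨x, hx⟩ := hne
      have hsub : orb K x ⊆ Y := by
        intro z hz
        obtain ⟨g, hg, rfl⟩ := mem_orb.mp hz
        exact hY g hg x hx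
      have hxo : x ∈ orb K x := mem_orb.mpr ⟨1, K.one_mem, rfl⟩
      have hss : Y \ orb K x ⊂ Y := by
        refine Finset.sdiff_ssubset hsub ⟨x, hxo⟩
      have h1 := ih _ hss (by
        intro g hg z hz
        rw [Finset.mem_sdiff] at hz ⊢
        refine ⟨hY g hg z hz.1, fun hgz => hz.2 ?_⟩
        obtain ⟨g', hg', hg'x⟩ := mem_orb.mp hgz
        refine mem_orb.mpr ⟨g⁻¹ * g', K.mul_mem (K.inv_mem hg) hg', ?_⟩
        rw [Perm.mul_apply, hg'x]
        simp) (fun z hz => hl z (Finset.mem_sdiff.mp hz).1)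
      have h2 := Finset.card_sdiff_add_card_eq_card hsub
      rw [← h2, hl x hx]
      exact dvd_add h1 dvd_rfl
    · rw [Finset.not_nonempty_iff_eq_empty] at hne
      simp [hne]

/-- A transitive stabiliser of an `h`-set yields `(h+1)`-transitivity. -/
lemma TT_succ_of_transitive {G : Subgroup (Perm Ω)} {h : ℕ} (hT : TT G h)
    (hn : h + 1 ≤ Fintype.card Ω) {s₀ : Finset Ω} (hs₀ : s₀.card = h) {y₀ : Ω} (hy₀ : y₀ ∉ s₀)
    (htr : ∀ x, x ∉ s₀ → x ∈ orb (ptS G s₀) y₀) : TT G (h + 1) := by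
  intro σ s' hs'
  obtain ⟨Γ, hsΓ, hΓ⟩ := Finset.exists_superset_card_eq hs' hn
  obtain ⟨p, hp⟩ : Γ.Nonempty := Finset.card_pos.mp (by omega)
  set s := Γ.erase p with hs
  have hsc : s.card = h := by rw [hs, Finset.card_erase_of_mem hp]; omega
  obtain ⟨g₀, hg₀, hg₀σ⟩ := hT σ s hsc.le
  -- image of `s`
  set τ := s.image g₀ with hτ
  have hτc : τ.card = h := by rw [hτ, Finset.card_image_of_injective _ g₀.injective, hsc]
  obtain ⟨c, hc, hcτ⟩ := exists_conj_image hT hs₀ hτc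
  have hpτ : ∀ z, z ∉ s → g₀ z ∉ τ := by
    intro z hz hz'
    obtain ⟨w, hw, hwz⟩ := Finset.mem_image.mp hz'
    rw [g₀.injective hwz] at hw
    exact hz hw
  have hσpτ : σ p ∉ τ := by
    intro hz'
    obtain ⟨w, hw, hwz⟩ := Finset.mem_image.mp hz'
    rw [hg₀σ w hw] at hwz
    have := σ.injective hwz
    rw [this] at hw
    simp [hs] at hw
  have hps : p ∉ s := by simp [hs]
  -- transport the transitivity
  have hout : ∀ z, z ∉ τ → c⁻¹ z ∉ s₀ := by
    intro z hz hz'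
    apply hz
    rw [← hcτ]
    exact Finset.mem_image.mpr ⟨_, hz', by simp⟩
  obtain ⟨u₁, hu₁, h1⟩ := mem_orb.mp (htr _ (hout _ (hpτ p hps)))
  obtain ⟨u₂, hu₂, h2⟩ := mem_orb.mp (htr _ (hout _ hσpτ))
  -- the element
  set t := c * (u₂ * u₁⁻¹) * c⁻¹ with ht
  have htG : t ∈ G := G.mul_mem (G.mul_mem hc (G.mul_mem hu₂.1 (G.inv_mem hu₁.1))) (G.inv_mem hc)
  have htτ : ∀ z ∈ τ, t z = z := by
    intro z hz
    rw [← hcτ] at hz
    obtain ⟨w, hw, rfl⟩ := Finset.mem_image.mp hz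
    have i1 : u₁⁻¹ w = w := by rw [Perm.inv_eq_iff_eq, hu₁.2 w hw]
    have hcc : c⁻¹ (c w) = w := by simp
    simp only [ht, Perm.mul_apply, hcc, i1, hu₂.2 w hw]
  have htp : t (g₀ p) = σ p := by
    have i1 : u₁⁻¹ (c⁻¹ (g₀ p)) = y₀ := by rw [Perm.inv_eq_iff_eq, h1]
    simp only [ht, Perm.mul_apply, i1, h2]
    simp
  refine ⟨t * g₀, G.mul_mem htG hg₀, fun z hz => ?_⟩
  by_cases hzp : z = p
  · subst hzp
    simpa using htp
  · have hzs : z ∈ s := Finset.mem_erase.mpr ⟨hzp, hsΓ hz⟩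
    rw [Perm.mul_apply, htτ _ (Finset.mem_image_of_mem _ hzs), hg₀σ z hzs]

/-- Lemma R: the pointwise stabiliser of an `(h+1)`-set is trivial. -/
theorem trivial_stab {G : Subgroup (Perm Ω)} {h : ℕ} (hT : TT G h) (hnt : ¬ TT G (h + 1))
    (hH1 : Hg G (h + 1)) (hH2 : Hg G (h + 2)) (hn : h + 2 ≤ Fintype.card Ω) {Γ : Finset Ω}
    (hΓ : Γ.card = h + 1) : ptS G Γ = ⊥ := by
  obtain ⟨y, hy⟩ : Γ.Nonempty := Finset.card_pos.mp (by omega)
  set s := Γ.erase y with hs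
  have hsc : s.card = h := by rw [hs, Finset.card_erase_of_mem hy]; omega
  have hys : y ∉ s := by simp [hs]
  have hΓe : insert y s = Γ := Finset.insert_erase hy
  set U := ptS G s with hU
  set K := ptS G Γ with hK
  have hKU : K = ptS U {y} := by rw [hU, ptS_ptS_insert, hΓe]
  have hKle : K ≤ U := fun g hg => ⟨hg.1, fun x hx => hg.2 x (Finset.mem_of_mem_erase hx)⟩
  -- a second orbit
  obtain ⟨x₀, hx₀s, hx₀O⟩ : ∃ x₀, x₀ ∉ s ∧ x₀ ∉ orb U y := by
    by_contra hcon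
    push Not at hcon
    exact hnt (TT_succ_of_transitive hT (by omega) hsc hys hcon)
  -- orbit lengths of `U`
  have hUorb : ∀ x, x ∉ s → (orb U x).card * Nat.card K = Nat.card U := by
    intro x hx
    have h1 := card_eq_orb_mul U x
    rw [hU, ptS_ptS_insert] at h1
    have h2 : Nat.card (ptS G (insert x s)) = Nat.card K :=
      hH1.card_ptS (by rw [Finset.card_insert_of_notMem hx, hsc]) hΓ
    rw [h2] at h1
    exact h1.symm
  have hKpos : 0 < Nat.card K := Nat.card_pos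
  have hUeq : ∀ x, x ∉ s → (orb U x).card = (orb U y).card := by
    intro x hx
    exact Nat.eq_of_mul_eq_mul_right hKpos ((hUorb x hx).trans (hUorb y hys).symm)
  have hx₀Γ : x₀ ∉ Γ := by
    intro hh
    rw [← hΓe, Finset.mem_insert] at hh
    rcases hh with hh | hh
    · apply hx₀O
      rw [hh]
      exact mem_orb.mpr ⟨1, U.one_mem, rfl⟩
    · exact hx₀s hh
  -- orbit lengths of `K`
  set c₂ := Nat.card (ptS G (insert x₀ Γ)) with hc₂
  have hKorb : ∀ x, x ∉ Γ → (orb K x).card * c₂ = Nat.card K := by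
    intro x hx
    have h1 := card_eq_orb_mul K x
    rw [hK, ptS_ptS_insert] at h1
    have h2 : Nat.card (ptS G (insert x Γ)) = c₂ :=
      hH2.card_ptS (by rw [Finset.card_insert_of_notMem hx, hΓ]) (by
        rw [Finset.card_insert_of_notMem hx₀Γ, hΓ])
    rw [h2] at h1
    exact h1.symm
  have hc₂pos : 0 < c₂ := Nat.card_pos
  have hKeq : ∀ x, x ∉ Γ → (orb K x).card = (orb K x₀).card := by
    intro x hx
    exact Nat.eq_of_mul_eq_mul_right hc₂pos ((hKorb x hx).trans (hKorb x₀ hx₀Γ).symm)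
  set l := (orb K x₀).card with hl
  -- `l` divides `m' - 1` and `m'`
  have hyO : y ∈ orb U y := mem_orb.mpr ⟨1, U.one_mem, rfl⟩
  have hOs : ∀ z ∈ orb U y, z ∉ s := by
    intro z hz hzs
    obtain ⟨g, hg, rfl⟩ := mem_orb.mp hz
    have := hg.2 _ hzs
    have h3 := g.injective this
    rw [← h3] at hys
    exact hys hzs
  have hO's : ∀ z ∈ orb U x₀, z ∉ s := by
    intro z hz hzs
    obtain ⟨g, hg, rfl⟩ := mem_orb.mp hz
    have := hg.2 _ hzs
    have h3 := g.injective this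
    rw [← h3] at hx₀s
    exact hx₀s hzs
  have hdisj : ∀ z ∈ orb U x₀, z ∉ orb U y := by
    intro z hz hz'
    obtain ⟨g, hg, rfl⟩ := mem_orb.mp hz
    obtain ⟨g', hg', hg'y⟩ := mem_orb.mp hz'
    apply hx₀O
    refine mem_orb.mpr ⟨g⁻¹ * g', U.mul_mem (U.inv_mem hg) hg', ?_⟩
    rw [Perm.mul_apply, hg'y]
    simp
  have h1 : l ∣ ((orb U y).erase y).card := by
    apply dvd_card_of_orbits K l
    · intro g hg x hx
      rw [Finset.mem_erase] at hx ⊢
      obtain ⟨g', hg', hg'y⟩ := mem_orb.mp hx.2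
      have hgy : g y = y := hg.2 y hy
      refine ⟨fun e => hx.1 (g.injective (e.trans hgy.symm)), ?_⟩
      exact mem_orb.mpr ⟨g * g', U.mul_mem (hKle hg) hg', by rw [Perm.mul_apply, hg'y]⟩
    · intro x hx
      rw [Finset.mem_erase] at hx
      apply hKeq
      intro hxΓ
      rw [← hΓe, Finset.mem_insert] at hxΓ
      rcases hxΓ with e | e
      · exact hx.1 e
      · exact hOs x hx.2 e
  have h2 : l ∣ (orb U x₀).card := by
    apply dvd_card_of_orbits K l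
    · intro g hg x hx
      obtain ⟨g', hg', hg'y⟩ := mem_orb.mp hx
      exact mem_orb.mpr ⟨g * g', U.mul_mem (hKle hg) hg', by rw [Perm.mul_apply, hg'y]⟩
    · intro x hx
      apply hKeq
      intro hxΓ
      rw [← hΓe, Finset.mem_insert] at hxΓ
      rcases hxΓ with e | e
      · exact hdisj x hx (e ▸ hyO)
      · exact hO's x hx e
  rw [Finset.card_erase_of_mem hyO] at h1
  rw [hUeq x₀ hx₀s] at h2
  have hpos : 0 < (orb U y).card := Finset.card_pos.mpr ⟨y, hyO⟩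
  have h3 : l ∣ 1 := by
    have := (Nat.dvd_sub h2 h1)
    have h4 : (orb U y).card - ((orb U y).card - 1) = 1 := by omega
    rwa [h4] at this
  have hl1 : l = 1 := Nat.dvd_one.mp h3
  -- conclusion
  rw [eq_bot_iff]
  intro g hg
  rw [Subgroup.mem_bot]
  ext x
  by_cases hx : x ∈ Γ
  · simpa using hg.2 x hx
  · have h5 := hKeq x hx
    rw [hl1] at h5
    obtain ⟨w, hw⟩ := Finset.card_eq_one.mp h5
    have h6 : x ∈ orb K x := mem_orb.mpr ⟨1, K.one_mem, rfl⟩
    have h7 : g x ∈ orb K x := mem_orb.mpr ⟨g, hg, rfl⟩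
    rw [hw, Finset.mem_singleton] at h6 h7
    change g x = x
    rw [h7, h6]

/-- `k`-transitivity from a single `k`-set on which the symmetric group is induced. -/
lemma TT_of_one_top {G : Subgroup (Perm Ω)} {m : ℕ} (hH : Hg G m) {Γ₀ : Finset Ω} (hΓ₀ : Γ₀.card = m)
    (htop : rz G Γ₀ = ⊤) (hn : m ≤ Fintype.card Ω) : TT G m := by
  intro σ s' hs'
  obtain ⟨Γ₁, hsΓ, hΓ₁⟩ := Finset.exists_superset_card_eq hs' hn
  set Γ₂ := Γ₁.image σ with hΓ₂
  have hΓ₂c : Γ₂.card = m := by rw [hΓ₂, Finset.card_image_of_injective _ σ.injective, hΓ₁]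
  obtain ⟨g₁, hg₁, h1⟩ := hH Γ₁ Γ₀ hΓ₁ hΓ₀
  obtain ⟨g₂, hg₂, h2⟩ := hH Γ₀ Γ₂ hΓ₀ hΓ₂c
  set π := g₂⁻¹ * σ * g₁⁻¹ with hπ
  have hπst : π ∈ stS Γ₀ := by
    apply stS_of_maps
    intro x hx
    rw [← h1] at hx
    obtain ⟨w, hw, rfl⟩ := Finset.mem_image.mp hx
    have : π (g₁ w) = g₂⁻¹ (σ w) := by simp [hπ]
    rw [this]
    have h3 : σ w ∈ Γ₂ := Finset.mem_image_of_mem _ hw
    rw [← h2] at h3
    obtain ⟨z, hz, hzw⟩ := Finset.mem_image.mp h3
    rw [← hzw]
    simpa using hz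
  have hmem : rs π Γ₀ hπst ∈ rz G Γ₀ := by rw [htop]; trivial
  obtain ⟨c, hc, hcπ⟩ := hmem
  refine ⟨g₂ * c * g₁, G.mul_mem (G.mul_mem hg₂ hc) hg₁, fun x hx => ?_⟩
  have hx' : g₁ x ∈ Γ₀ := by
    rw [← h1]
    exact Finset.mem_image_of_mem _ (hsΓ hx)
  have h3 := hcπ ⟨g₁ x, hx'⟩
  simp only [rs_apply] at h3
  simp only [Perm.mul_apply, h3, hπ]
  simp

end Cfsg.Agent.LW
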