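import Cfsg.Agent.Lib.LW.Homog

/-!
# Livingstone–Wagner: groups `h`-transitive, not `(h+1)`-transitive, `(h+1)`- and `(h+2)`-homogeneous
-/

set_option autoImplicit false
set_option linter.unusedSectionVars false
set_option linter.unusedVariables false

namespace Cfsg.Agent.LW

open Equiv Equiv.Perm
open scoped Pointwise

universe u

variable {Ω : Type u} [Fintype Ω] [DecidableEq Ω]

/-- The hypotheses of the exceptional theorem. -/
structure RH (G : Subgroup (Perm Ω)) (h : ℕ) : Prop where
  T : TT G h
  nt : ¬ TT G (h + 1)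
  H1 : Hg G (h + 1)
  H2 : Hg G (h + 2)
  n : h + 2 ≤ Fintype.card Ω

namespace RH

variable {G : Subgroup (Perm Ω)} {h : ℕ}

lemma bot (R : RH G h) {Γ : Finset Ω} (hΓ : Γ.card = h + 1) : ptS G Γ = ⊥ :=
  trivial_stab R.T R.nt R.H1 R.H2 R.n hΓ

lemma hb (R : RH G h) {j : Perm Ω} (hj : j ∈ G) (h1 : j ≠ 1) : (fx j).card ≤ h := by
  by_contra hcon
  push Not at hcon
  obtain ⟨Γ, hΓs, hΓ⟩ := Finset.exists_subset_card_eq (s := fx j) (n := h + 1) hcon
  have h2 : j ∈ ptS G Γ := ⟨hj, fun x hx => mem_fx.mp (hΓs hx)⟩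
  rw [R.bot hΓ, Subgroup.mem_bot] at h2
  exact h1 h2

lemma noInv (R : RH G h) : NoInv G h := by
  intro j hj h2 hc
  by_contra h1
  have hc' : (fx j).card = h := le_antisymm (R.hb hj h1) hc
  obtain ⟨Γ, -, hΓ⟩ := Finset.exists_subset_card_eq (s := (Finset.univ : Finset Ω)) (n := h + 1)
    (by have := R.n; simp; omega)
  have htop := caseC (fun j' hj' _ h1' => R.hb hj' h1')
    (fun t ht => exists_invol_fx R.T hj h2 hc' ht) hΓ
  exact R.nt (TT_of_one_top R.H1 hΓ htop (by have := R.n; omega))

/-- Semiregularity of the `h`-point stabiliser. -/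
lemma semi (R : RH G h) {s : Finset Ω} (hs : s.card = h) {g : Perm Ω} (hg : g ∈ ptS G s) {x : Ω}
    (hx : x ∉ s) (hgx : g x = x) : g = 1 := by
  have h1 : g ∈ ptS G (insert x s) := ⟨hg.1, fun y hy => by
    rw [Finset.mem_insert] at hy
    rcases hy with rfl | hy
    · exact hgx
    · exact hg.2 y hy⟩
  rw [R.bot (by rw [Finset.card_insert_of_notMem hx, hs]), Subgroup.mem_bot] at h1
  exact h1

/-- For `h ≥ 4` the only possibility is `n = h + 2`. -/
theorem large (R : RH G h) (hh : 4 ≤ h) : h + 2 = Fintype.card Ω := by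
  have hI := R.noInv
  by_cases hm : Odd (Fintype.card Ω - h)
  · exfalso
    obtain ⟨Δ, hΔ, htop⟩ := caseA hh (by have := R.n; omega) R.T hI hm
    exact R.nt (TT_of_one_top R.H1 hΔ htop (by have := R.n; omega))
  · rw [Nat.not_odd_iff_even] at hm
    obtain ⟨L, -, hLc⟩ := Finset.exists_subset_card_eq (s := (Finset.univ : Finset Ω)) (n := h - 4)
      (by have := R.n; simp; omega)
    have hL : L.card + 4 = h := by omega
    have hT := TT_restrict R.T hL
    have hI' := NoInv_restrict hI hL
    have hcard : Fintype.card ↥(Lᶜ : Finset Ω) = Fintype.card Ω - (h - 4) := by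
      rw [Fintype.card_coe, Finset.card_compl, hLc]
    have h6 := theoremE hT hI' (by
      rw [hcard]
      obtain ⟨c, hc⟩ := hm
      exact ⟨c + 2, by have := R.n; omega⟩) (by rw [hcard]; have := R.n; omega)
    rw [hcard] at h6
    have := R.n
    omega

/-- `k = n`: the group is alternating. -/
theorem eq_alt (R : RH G h) (hk : h + 2 = Fintype.card Ω) : G = alternatingGroup Ω := by
  have hk2 : Nat.card Ω - 2 = h := by
    rw [Nat.card_eq_fintype_card]; omega
  have hmt : MulAction.IsMultiplyPretransitive G Ω (Nat.card Ω - 2) := by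
    rw [hk2]; exact isMultiplyPretransitive_of_TT R.T
  have hA := IsMultiplyPretransitive.alternatingGroup_le Ω G hmt
  apply le_antisymm _ hA
  intro g hg
  by_contra hodd
  apply R.nt
  intro σ s _
  refine ⟨σ, ?_, fun _ _ => rfl⟩
  by_cases hσ : σ ∈ alternatingGroup Ω
  · exact hA hσ
  · have h1 : g⁻¹ * σ ∈ alternatingGroup Ω := by
      rw [Equiv.Perm.mem_alternatingGroup] at hodd hσ ⊢
      rw [Perm.sign_mul, Perm.sign_inv]
      rcases Int.units_eq_one_or (sign g) with e1 | e1
      · exact absurd e1 hodd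
      · rcases Int.units_eq_one_or (sign σ) with e2 | e2
        · exact absurd e2 hσ
        · rw [e1, e2]; rfl
    have h2 := G.mul_mem hg (hA h1)
    simpa using h2

end RH

/-! ### Counting -/

lemma card_G_desc {G : Subgroup (Perm Ω)} {h : ℕ} (hT : TT G h) (s : Finset Ω) (hs : s.card ≤ h) :
    Nat.card G = (Fintype.card Ω).descFactorial s.card * Nat.card (ptS G s) := by
  induction s using Finset.induction_on with
  | empty =>
    have : ptS G ∅ = G := by
      ext g
      simp [mem_ptS]
    simp [this]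
  | insert x s hx ih =>
    rw [Finset.card_insert_of_notMem hx] at hs ⊢
    rw [ih (by omega), card_ptS_insert hT hx (by omega), Nat.descFactorial_succ, mul_assoc]
    ring

lemma psi_injective : Function.Injective (psi : Perm Ω → Perm (Finset Ω)) := by
  intro g h hgh
  ext x
  have h1 := congrArg (fun f : Perm (Finset Ω) => f {x}) hgh
  simp only [psi_apply, Finset.map_singleton] at h1
  simpa using h1

lemma mem_stS_iff_psi {g : Perm Ω} {Γ : Finset Ω} : g ∈ stS Γ ↔ psi g Γ = Γ := by
  rw [psi_apply, Finset.map_eq_image]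
  constructor
  · intro h
    apply Finset.eq_of_subset_of_card_le
    · intro y hy
      obtain ⟨z, hz, rfl⟩ := Finset.mem_image.mp hy
      exact (h z).mpr hz
    · rw [Finset.card_image_of_injective _ (Equiv.toEmbedding g).injective]
  · intro h
    apply stS_of_maps
    intro x hx
    rw [← h]
    exact Finset.mem_image_of_mem _ hx

/-- Orbit-stabiliser for the action on `m`-sets. -/
lemma card_G_choose {G : Subgroup (Perm Ω)} {m : ℕ} (hH : Hg G m) {Γ : Finset Ω} (hΓ : Γ.card = m) :
    Nat.card G = (Fintype.card Ω).choose m * Nat.card (G ⊓ stS Γ : Subgroup (Perm Ω)) := by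
  set H : Subgroup (Perm (Finset Ω)) := G.map psi with hHd
  have h1 := card_eq_orb_mul H Γ
  have h2 : Nat.card H = Nat.card G :=
    (Nat.card_congr (G.equivMapOfInjective _ psi_injective).toEquiv).symm
  have h3 : orb H Γ = (Finset.univ : Finset Ω).powersetCard m := by
    ext y
    rw [mem_orb, Finset.mem_powersetCard]
    constructor
    · rintro ⟨_, ⟨g, hg, rfl⟩, rfl⟩
      refine ⟨Finset.subset_univ _, ?_⟩
      rw [psi_apply, Finset.card_map, hΓ]
    · rintro ⟨-, hy⟩
      obtain ⟨g, hg, hgy⟩ := hH Γ y hΓ hy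
      refine ⟨psi g, ⟨g, hg, rfl⟩, ?_⟩
      rw [psi_apply, Finset.map_eq_image]
      exact hgy
  have h4 : ptS H {Γ} = (G ⊓ stS Γ).map psi := by
    ext f
    simp only [mem_ptS, Finset.mem_singleton, forall_eq, Subgroup.mem_map, Subgroup.mem_inf]
    constructor
    · rintro ⟨⟨g, hg, rfl⟩, hf⟩
      exact ⟨g, ⟨hg, mem_stS_iff_psi.mpr hf⟩, rfl⟩
    · rintro ⟨g, ⟨hg, hg'⟩, rfl⟩
      exact ⟨⟨g, hg, rfl⟩, mem_stS_iff_psi.mp hg'⟩
  have h5 : Nat.card (ptS H {Γ}) = Nat.card (G ⊓ stS Γ : Subgroup (Perm Ω)) := by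
    rw [h4]
    exact (Nat.card_congr ((G ⊓ stS Γ).equivMapOfInjective _ psi_injective).toEquiv).symm
  rw [h2, h3, h5, Finset.card_powersetCard, Finset.card_univ] at h1
  exact h1

/-- The setwise stabiliser acts faithfully when the pointwise stabiliser is trivial. -/
lemma card_stab_dvd {G : Subgroup (Perm Ω)} {Γ : Finset Ω} (hb : ptS G Γ = ⊥) :
    Nat.card (G ⊓ stS Γ : Subgroup (Perm Ω)) ∣ (Γ.card).factorial := by
  let f : ↥(G ⊓ stS Γ : Subgroup (Perm Ω)) →* Perm ↥Γ :=
    { toFun := fun g => rs g.1 Γ g.2.2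
      map_one' := by
        ext x
        rfl
      map_mul' := fun a b => by
        ext x
        rfl }
  have hf : Function.Injective f := by
    rw [injective_iff_map_eq_one]
    intro g hg
    have h1 : g.1 ∈ ptS G Γ := ⟨g.2.1, fun x hx => by
      have := congrArg (fun τ : Perm ↥Γ => ((τ ⟨x, hx⟩ : ↥Γ) : Ω)) hg
      exact this⟩
    rw [hb, Subgroup.mem_bot] at h1
    exact Subtype.ext h1
  have h2 := Subgroup.card_dvd_of_injective f hf
  have h3 : Nat.card ↥Γ = Γ.card := by rw [Nat.card_eq_fintype_card, Fintype.card_coe]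
  rwa [Nat.card_perm, h3] at h2

namespace RH

variable {G : Subgroup (Perm Ω)} {h : ℕ}

/-- The numerical consequences. -/
theorem count (R : RH G h) {s : Finset Ω} (hs : s.card = h) :
    ∃ r a b : ℕ, r * Nat.card (ptS G s) = Fintype.card Ω - h ∧ r * a = (h + 1).factorial ∧
      (Fintype.card Ω - h - 1) * r * b = (h + 2).factorial ∧
      Nat.card G = (Fintype.card Ω).descFactorial h * Nat.card (ptS G s) ∧
      (∀ Γ : Finset Ω, Γ.card = h + 1 → Nat.card (G ⊓ stS Γ : Subgroup (Perm Ω)) = a) := by
  set U := ptS G s with hU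
  set u := Nat.card U with hu
  set n := Fintype.card Ω with hn
  have hupos : 0 < u := Nat.card_pos
  have hRn := R.n
  have hA : Nat.card G = n.descFactorial h * u := by
    have := card_G_desc R.T s hs.le
    rwa [hs] at this
  -- `u` divides `n - h`
  have hdiv : u ∣ n - h := by
    have h1 : u ∣ (sᶜ : Finset Ω).card := by
      apply dvd_card_of_orbits U u
      · intro g hg x hx
        rw [Finset.mem_compl] at hx ⊢
        intro hgx
        apply hx
        have := hg.2 _ hgx
        rw [g.injective this] at hgx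
        exact hgx
      · intro x hx
        rw [Finset.mem_compl] at hx
        have h2 := card_eq_orb_mul U x
        have h3 : ptS U {x} = ⊥ := by
          rw [hU, ptS_ptS_insert]
          exact R.bot (by rw [Finset.card_insert_of_notMem hx, hs])
        rw [h3, Subgroup.card_bot, mul_one] at h2
        exact h2.symm
    rwa [Finset.card_compl, hs] at h1
  obtain ⟨r, hr⟩ := hdiv
  obtain ⟨Γ₀, -, hΓ₀⟩ := Finset.exists_subset_card_eq (s := (Finset.univ : Finset Ω)) (n := h + 1)
    (by simp; omega)
  obtain ⟨Δ₀, -, hΔ₀⟩ := Finset.exists_subset_card_eq (s := (Finset.univ : Finset Ω)) (n := h + 2)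
    (by simp; omega)
  set a := Nat.card (G ⊓ stS Γ₀ : Subgroup (Perm Ω)) with ha
  set b := Nat.card (G ⊓ stS Δ₀ : Subgroup (Perm Ω)) with hb
  have hA1 := card_G_choose R.H1 hΓ₀
  have hA2 := card_G_choose R.H2 hΔ₀
  have hdpos : 0 < n.descFactorial h := Nat.descFactorial_pos.mpr (by omega)
  have hD1 : n.descFactorial (h + 1) = (n - h) * n.descFactorial h := Nat.descFactorial_succ _ _
  have hD2 : n.descFactorial (h + 2) = (n - (h + 1)) * n.descFactorial (h + 1) :=
    Nat.descFactorial_succ _ _
  have hC1 : n.descFactorial (h + 1) = (h + 1).factorial * n.choose (h + 1) :=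
    Nat.descFactorial_eq_factorial_mul_choose _ _
  have hC2 : n.descFactorial (h + 2) = (h + 2).factorial * n.choose (h + 2) :=
    Nat.descFactorial_eq_factorial_mul_choose _ _
  have e1 : r * a = (h + 1).factorial := by
    have h1 : (n.descFactorial h * u) * (r * a) = (n.descFactorial h * u) * (h + 1).factorial := by
      calc (n.descFactorial h * u) * (r * a) = ((u * r) * n.descFactorial h) * a := by ring
        _ = n.descFactorial (h + 1) * a := by rw [hD1, hr]
        _ = (h + 1).factorial * (n.choose (h + 1) * a) := by rw [hC1]; ring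
        _ = (h + 1).factorial * Nat.card G := by rw [← hA1]
        _ = (n.descFactorial h * u) * (h + 1).factorial := by rw [hA]; ring
    exact Nat.eq_of_mul_eq_mul_left (Nat.mul_pos hdpos hupos) h1
  have e2 : (n - h - 1) * r * b = (h + 2).factorial := by
    have h1 : (n.descFactorial h * u) * ((n - h - 1) * r * b) =
        (n.descFactorial h * u) * (h + 2).factorial := by
      have h3 : n - (h + 1) = n - h - 1 := by omega
      calc (n.descFactorial h * u) * ((n - h - 1) * r * b)
          = ((n - h - 1) * ((u * r) * n.descFactorial h)) * b := by ring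
        _ = n.descFactorial (h + 2) * b := by rw [hD2, hD1, h3, ← hr]
        _ = (h + 2).factorial * (n.choose (h + 2) * b) := by rw [hC2]; ring
        _ = (h + 2).factorial * Nat.card G := by rw [← hA2]
        _ = (n.descFactorial h * u) * (h + 2).factorial := by rw [hA]; ring
    exact Nat.eq_of_mul_eq_mul_left (Nat.mul_pos hdpos hupos) h1
  refine ⟨r, a, b, by rw [hr, mul_comm], e1, e2, hA, fun Γ hΓ => ?_⟩
  have h1 := card_G_choose R.H1 hΓ
  have hCpos : 0 < n.choose (h + 1) := Nat.choose_pos (by omega)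
  exact Nat.eq_of_mul_eq_mul_left hCpos (h1.symm.trans hA1)

end RH

end Cfsg.Agent.LW
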