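import Cfsg.Agent.Lib.LW.E3

/-!
# Livingstone–Wagner: a `k`-transitive group (`k ≥ 4`, `k < n`) has a `(k+1)`-set on which the
setwise stabiliser induces at least the alternating group.
-/

set_option autoImplicit false
set_option linter.unusedSectionVars false
set_option linter.unusedVariables false

namespace Cfsg.Agent.LW

open Equiv Equiv.Perm

universe u

variable {Ω : Type u} [Fintype Ω] [DecidableEq Ω]

/-- The restriction of a pointwise stabiliser to the complement. -/
lemma TT_restrict {G : Subgroup (Perm Ω)} {k l : ℕ} (hG : TT G k) {L : Finset Ω}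
    (hL : L.card + l = k) : TT (rz (ptS G L) Lᶜ) l := by
  intro σ' s' hs'
  set s : Finset Ω := L ∪ s'.map (Function.Embedding.subtype _) with hs
  have hsc : s.card ≤ k := by
    refine (Finset.card_union_le _ _).trans ?_
    rw [Finset.card_map]
    omega
  obtain ⟨g, hg, hgσ⟩ := hG (ofSubtype σ') s hsc
  have hgL : ∀ x ∈ L, g x = x := by
    intro x hx
    rw [hgσ x (Finset.mem_union_left _ hx)]
    apply ofSubtype_apply_of_not_mem
    simpa using hx
  have hgm : ∀ x, g x ∈ Lᶜ ↔ x ∈ Lᶜ := by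
    have h0 : g ∈ stS L := stS_of_maps fun x hx => by rw [hgL x hx]; exact hx
    intro x
    rw [Finset.mem_compl, Finset.mem_compl, not_iff_not]
    exact h0 x
  refine ⟨rs g Lᶜ hgm, ⟨g, ⟨hg, hgL⟩, fun y => rfl⟩, fun y hy => ?_⟩
  apply Subtype.ext
  rw [rs_apply, hgσ y (Finset.mem_union_right _ (Finset.mem_map_of_mem _ hy))]
  exact ofSubtype_apply_coe σ' y

lemma NoInv_restrict {G : Subgroup (Perm Ω)} {k l : ℕ} (hI : NoInv G k) {L : Finset Ω}
    (hL : L.card + l = k) : NoInv (rz (ptS G L) Lᶜ) l := by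
  rintro ι ⟨g, hg, hgι⟩ h2 hc
  have hact : ∀ y : ↥(Lᶜ : Finset Ω), g (y : Ω) = ι y := hgι
  have hg2 : g * g = 1 := by
    ext x
    by_cases hx : x ∈ L
    · simp [hg.2 x hx]
    · have hx' : x ∈ Lᶜ := by simpa using hx
      have h3 := hact ⟨x, hx'⟩
      have h4 := hact (ι ⟨x, hx'⟩)
      rw [Perm.mul_apply]
      simp only at h3
      rw [h3, h4, ← Perm.mul_apply, h2]
      rfl
  have hsub : L ∪ (fx ι).map (Function.Embedding.subtype _) ⊆ fx g := by
    intro x hx
    rw [Finset.mem_union] at hx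
    rcases hx with hx | hx
    · exact mem_fx.mpr (hg.2 x hx)
    · obtain ⟨y, hy, rfl⟩ := Finset.mem_map.mp hx
      rw [mem_fx]
      simp only [Function.Embedding.subtype_apply]
      rw [hact, mem_fx.mp hy]
  have hcard : (L ∪ (fx ι).map (Function.Embedding.subtype _)).card = L.card + (fx ι).card := by
    rw [Finset.card_union_of_disjoint, Finset.card_map]
    rw [Finset.disjoint_left]
    intro x hx hx'
    obtain ⟨y, -, rfl⟩ := Finset.mem_map.mp hx'
    have := y.2
    simp only [Finset.mem_compl] at this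
    exact this hx
  have h5 : k ≤ (fx g).card := by
    have := Finset.card_le_card hsub
    omega
  have h6 := hI g hg.1 hg2 h5
  ext y
  have := hact y
  rw [h6] at this
  simpa using this.symm

/-- Case B: no involution fixes `k` points, `n - k` even. -/
theorem caseB {G : Subgroup (Perm Ω)} {k : ℕ} (hk : 4 ≤ k) (hn : k < Fintype.card Ω)
    (hG : TT G k) (hI : NoInv G k) (hm : Even (Fintype.card Ω - k)) :
    ∃ Δ : Finset Ω, Δ.card = k + 1 ∧ alternatingGroup ↥Δ ≤ rz G Δ := by
  obtain ⟨L, -, hLc⟩ := Finset.exists_subset_card_eq (s := (Finset.univ : Finset Ω)) (n := k - 4)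
    (by simp; omega)
  have hL : L.card + 4 = k := by omega
  have hT := TT_restrict hG hL
  have hI' := NoInv_restrict hI hL
  have hcard : Fintype.card ↥(Lᶜ : Finset Ω) = Fintype.card Ω - (k - 4) := by
    rw [Fintype.card_coe, Finset.card_compl, hLc]
  have h6 := theoremE hT hI' (by
    rw [hcard]
    obtain ⟨c, hc⟩ := hm
    exact ⟨c + 2, by omega⟩) (by rw [hcard]; omega)
  rw [hcard] at h6
  -- `k = n - 2`
  have hk2 : Nat.card Ω - 2 = k := by
    rw [Nat.card_eq_fintype_card]; omega
  have hmt : MulAction.IsMultiplyPretransitive G Ω (Nat.card Ω - 2) := by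
    rw [hk2]; exact isMultiplyPretransitive_of_TT hG
  have hA := IsMultiplyPretransitive.alternatingGroup_le Ω G hmt
  obtain ⟨y⟩ : Nonempty Ω := by
    apply Fintype.card_pos_iff.mp; omega
  refine ⟨Finset.univ.erase y, ?_, fun σ hσ => ?_⟩
  · rw [Finset.card_erase_of_mem (Finset.mem_univ y), Finset.card_univ]
    omega
  · have h1 : ofSubtype σ ∈ alternatingGroup Ω := by
      rw [Equiv.Perm.mem_alternatingGroup] at hσ ⊢
      rw [sign_ofSubtype, hσ]
    exact ⟨ofSubtype σ, hA h1, fun x => ofSubtype_apply_coe σ x⟩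

theorem main_LW {k : ℕ} (hk : 4 ≤ k) : ∀ (n : ℕ) (Ω : Type u) [Fintype Ω] [DecidableEq Ω]
    (G : Subgroup (Perm Ω)), Fintype.card Ω = n → k < n → TT G k →
    ∃ Δ : Finset Ω, Δ.card = k + 1 ∧ alternatingGroup ↥Δ ≤ rz G Δ := by
  intro n
  induction n using Nat.strong_induction_on with
  | _ n ih =>
    intro Ω _ _ G hcard hn hG
    by_cases hB : ∃ B : Subgroup (Perm Ω), B ≤ G ∧ IsPGroup 2 B ∧ B ≠ ⊥ ∧ k + 1 ≤ (fixOf B).card
    · -- reduction
      obtain ⟨B₀, hB₀G, hB₀2, hB₀1, hB₀f⟩ := hB
      let P : Type u := {B : Subgroup (Perm Ω) //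
        B ≤ G ∧ IsPGroup 2 B ∧ k + 1 ≤ (fixOf B).card}
      haveI : Nonempty P := ⟨⟨B₀, hB₀G, hB₀2, hB₀f⟩⟩
      obtain ⟨⟨B, hBG, hB2, hBf⟩, hmax⟩ := Finite.exists_max (fun B : P => Nat.card B.1)
      have hM : MaxB G B k := ⟨hBG, hB2, hBf, fun B' h1 h2 h3 => hmax ⟨B', h1, h2, h3⟩⟩
      have hB1 : B ≠ ⊥ := by
        rintro rfl
        have h1 := hmax ⟨B₀, hB₀G, hB₀2, hB₀f⟩
        simp only [Subgroup.card_bot] at h1
        have h2 : Nat.card B₀ = 1 := by
          have : 0 < Nat.card B₀ := Nat.card_pos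
          omega
        exact hB₀1 (Subgroup.eq_bot_of_card_eq _ h2)
      have hΦ : (fixOf B).card < n := by
        rw [← hcard, ← Finset.card_univ]
        apply Finset.card_lt_card
        rw [Finset.ssubset_univ_iff]
        intro h1
        apply hB1
        rw [eq_bot_iff]
        intro g hg
        rw [Subgroup.mem_bot]
        ext x
        have : x ∈ fixOf B := by rw [h1]; simp
        simpa using mem_fixOf.mp this g hg
      have hfin : ∀ Δ' : Finset ↥(fixOf B), Δ'.card = k + 1 →
          alternatingGroup ↥Δ' ≤ rz (rz (nG G B) (fixOf B)) Δ' →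
          ∃ Δ : Finset Ω, Δ.card = k + 1 ∧ alternatingGroup ↥Δ ≤ rz G Δ := by
        intro Δ' hc hΔ'
        obtain ⟨Δ, h1, h2⟩ := transfer_rz hΔ'
        exact ⟨Δ, h1.trans hc, h2.trans (rz_mono inf_le_left Δ)⟩
      by_cases hS : ∃ t : Finset Ω, t ⊆ fixOf B ∧ t.card = k ∧ IsSyl (ptS G t) B
      · obtain ⟨t, htF, htc, hts⟩ := hS
        have hTX := hM.witt hG htF htc hts
        obtain ⟨Δ', hc, hΔ'⟩ := ih (fixOf B).card hΦ ↥(fixOf B) (rz (nG G B) (fixOf B))
          (Fintype.card_coe _) (by omega) hTX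
        exact hfin Δ' hc hΔ'
      · push Not at hS
        obtain ⟨Δ', -, hΔ'c⟩ := Finset.exists_subset_card_eq
          (s := (Finset.univ : Finset ↥(fixOf B))) (n := k + 1) (by simpa using hBf)
        have htop : rz (rz (nG G B) (fixOf B)) Δ' = ⊤ := caseC
          (fun j hj h2 h1 => hM.hb hj h2 h1)
          (fun t ht => hM.ex (fun t' h1 h2 => hS t' h1 h2) t ht) hΔ'c
        exact hfin Δ' hΔ'c (by rw [htop]; exact le_top)
    · -- every involution fixes at most `k` points
      have hHB : ∀ j ∈ G, j * j = 1 → j ≠ 1 → (fx j).card ≤ k := by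
        intro j hj h2 h1
        by_contra hcon
        push Not at hcon
        apply hB
        refine ⟨Subgroup.zpowers j, Subgroup.zpowers_le.mpr hj, isPGroup_zpowers (f := 1) (by
          rw [pow_one, pow_two, h2]), ?_, ?_⟩
        · rw [Ne, Subgroup.zpowers_eq_bot]
          exact h1
        · refine le_trans hcon (Finset.card_le_card fun x hx => ?_)
          rw [mem_fixOf]
          intro g hg
          obtain ⟨i, rfl⟩ := Subgroup.mem_zpowers_iff.mp hg
          exact zpow_apply_eq_self_of_apply_eq_self (mem_fx.mp hx) i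
      by_cases hI : NoInv G k
      · by_cases hm : Odd (n - k)
        · obtain ⟨Δ, h1, h2⟩ := caseA hk (by omega) hG hI (by rwa [hcard])
          exact ⟨Δ, h1, by rw [h2]; exact le_top⟩
        · exact caseB hk (by omega) hG hI (by
            rw [hcard]; exact Nat.not_odd_iff_even.mp hm)
      · unfold NoInv at hI
        push Not at hI
        obtain ⟨j₀, hj₀, h2, hc, h1⟩ := hI
        have hc' : (fx j₀).card = k := le_antisymm (hHB j₀ hj₀ h2 h1) hc
        obtain ⟨Δ, -, hΔ⟩ := Finset.exists_subset_card_eq (s := (Finset.univ : Finset Ω))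
          (n := k + 1) (by simp; omega)
        refine ⟨Δ, hΔ, ?_⟩
        rw [caseC hHB (fun t ht => exists_invol_fx hG hj₀ h2 hc' ht) hΔ]
        exact le_top

end Cfsg.Agent.LW
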