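import Cfsg.Agent.Lib.LW.CaseC

/-!
# Livingstone–Wagner: the reduction to fixed points of a maximal 2-subgroup
-/

set_option autoImplicit false
set_option linter.unusedSectionVars false
set_option linter.unusedVariables false

namespace Cfsg.Agent.LW

open Equiv Equiv.Perm

variable {Ω : Type*} [Fintype Ω] [DecidableEq Ω]

open Classical in
/-- Common fixed points of a subgroup. -/
noncomputable def fixOf (B : Subgroup (Perm Ω)) : Finset Ω :=
  Finset.univ.filter fun x => ∀ g ∈ B, g x = x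

lemma mem_fixOf {B : Subgroup (Perm Ω)} {x : Ω} : x ∈ fixOf B ↔ ∀ g ∈ B, g x = x := by
  simp [fixOf]

lemma fixOf_norm {B : Subgroup (Perm Ω)} {g : Perm Ω}
    (hg : g ∈ Subgroup.normalizer (B : Set (Perm Ω))) (x : Ω) : g x ∈ fixOf B ↔ x ∈ fixOf B := by
  rw [Subgroup.mem_normalizer_iff] at hg
  simp only [mem_fixOf]
  constructor
  · intro h b hb
    have h1 : g * b * g⁻¹ ∈ B := (hg b).mp hb
    have h2 := h _ h1
    simpa using h2
  · intro h b hb
    have h1 : g⁻¹ * b * g ∈ B := by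
      rw [hg]
      have : g * (g⁻¹ * b * g) * g⁻¹ = b := by group
      rw [this]; exact hb
    have h2 := h _ h1
    simp only [Perm.mul_apply] at h2
    have h3 := congrArg g h2
    simpa using h3

/-- Conjugate of a subgroup. -/
noncomputable def cj (g : Perm Ω) (Q : Subgroup (Perm Ω)) : Subgroup (Perm Ω) :=
  Q.map (MulAut.conj g).toMonoidHom

lemma mem_cj {g x : Perm Ω} {Q : Subgroup (Perm Ω)} : x ∈ cj g Q ↔ g⁻¹ * x * g ∈ Q := by
  unfold cj
  constructor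
  · rintro ⟨y, hy, rfl⟩
    have : g⁻¹ * ((MulAut.conj g).toMonoidHom y) * g = y := by
      simp [MulAut.conj_apply]; group
    rw [this]; exact hy
  · intro h
    refine ⟨_, h, ?_⟩
    simp [MulAut.conj_apply]; group

lemma conj_mem_cj {g x : Perm Ω} {Q : Subgroup (Perm Ω)} (h : x ∈ Q) : g * x * g⁻¹ ∈ cj g Q := by
  rw [mem_cj]
  have : g⁻¹ * (g * x * g⁻¹) * g = x := by group
  rw [this]; exact h

lemma card_cj (g : Perm Ω) (Q : Subgroup (Perm Ω)) : Nat.card (cj g Q) = Nat.card Q :=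
  (Nat.card_congr (Q.equivMapOfInjective _ (MulAut.conj g).injective).toEquiv).symm

lemma cj_le_cj {g : Perm Ω} {Q R : Subgroup (Perm Ω)} (h : Q ≤ R) : cj g Q ≤ cj g R :=
  Subgroup.map_mono h

lemma cj_inv_cj (g : Perm Ω) (Q : Subgroup (Perm Ω)) : cj g⁻¹ (cj g Q) = Q := by
  ext x
  rw [mem_cj, mem_cj]
  have : g⁻¹ * (g⁻¹⁻¹ * x * g⁻¹) * g = x := by group
  rw [this]

lemma cj_cj_inv (g : Perm Ω) (Q : Subgroup (Perm Ω)) : cj g (cj g⁻¹ Q) = Q := by
  have := cj_inv_cj g⁻¹ Q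
  rwa [inv_inv] at this

lemma IsSyl.cj_conj {H Q : Subgroup (Perm Ω)} (h : IsSyl H Q) (g : Perm Ω) :
    IsSyl (cj g H) (cj g Q) := by
  refine ⟨cj_le_cj h.le, h.pg.map _, fun R hRH hR hle => ?_⟩
  have h1 : cj g⁻¹ R ≤ H := by
    have := cj_le_cj (g := g⁻¹) hRH
    rwa [cj_inv_cj] at this
  have h2 : IsPGroup 2 (cj g⁻¹ R) := hR.map _
  have h3 : Q ≤ cj g⁻¹ R := by
    have := cj_le_cj (g := g⁻¹) hle
    rwa [cj_inv_cj] at this
  have h4 := h.max _ h1 h2 h3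
  rw [← h4, cj_cj_inv]

lemma cj_ptS {G : Subgroup (Perm Ω)} {g : Perm Ω} (hg : g ∈ G) (s : Finset Ω) :
    cj g (ptS G s) = ptS G (s.image g) := by
  ext x
  rw [mem_cj, mem_ptS, mem_ptS]
  constructor
  · rintro ⟨h1, h2⟩
    have h3 : x = g * (g⁻¹ * x * g) * g⁻¹ := by group
    refine ⟨by rw [h3]; exact G.mul_mem (G.mul_mem hg h1) (G.inv_mem hg), fun y hy => ?_⟩
    obtain ⟨z, hz, rfl⟩ := Finset.mem_image.mp hy
    have h4 := h2 z hz
    simp only [Perm.mul_apply] at h4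
    have h5 := congrArg g h4
    simpa using h5
  · rintro ⟨h1, h2⟩
    refine ⟨G.mul_mem (G.mul_mem (G.inv_mem hg) h1) hg, fun y hy => ?_⟩
    have h4 := h2 (g y) (Finset.mem_image_of_mem _ hy)
    simp [h4]

lemma exists_normalizer_step {B R : Subgroup (Perm Ω)} (hBR : B ≤ R) (hne : R ≠ B)
    (hR : IsPGroup 2 R) :
    ∃ x ∈ R, x ∉ B ∧ x ∈ Subgroup.normalizer (B : Set (Perm Ω)) := by
  haveI : Group.IsNilpotent R := hR.isNilpotent
  have hlt : B.subgroupOf R < ⊤ := by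
    rw [lt_top_iff_ne_top]
    intro h
    apply hne
    apply le_antisymm _ hBR
    intro x hx
    have : (⟨x, hx⟩ : R) ∈ B.subgroupOf R := by rw [h]; trivial
    exact Subgroup.mem_subgroupOf.mp this
  have h1 := Group.normalizerCondition_of_isNilpotent _ hlt
  obtain ⟨x, hx, hx'⟩ := SetLike.exists_of_lt h1
  refine ⟨x, x.2, fun h => hx' (Subgroup.mem_subgroupOf.mpr h), ?_⟩
  rw [Subgroup.mem_normalizer_iff]
  rw [Subgroup.mem_normalizer_iff] at hx
  intro h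
  constructor
  · intro hh
    have h2 := (hx ⟨h, hBR hh⟩).mp (Subgroup.mem_subgroupOf.mpr hh)
    exact Subgroup.mem_subgroupOf.mp h2
  · intro hh
    have h3 : h ∈ R := by
      have h4 := hBR hh
      have h5 : h = (x : Perm Ω)⁻¹ * (x * h * (x : Perm Ω)⁻¹) * x := by group
      rw [h5]
      exact R.mul_mem (R.mul_mem (R.inv_mem x.2) h4) x.2
    have h6 := (hx ⟨h, h3⟩).mpr (Subgroup.mem_subgroupOf.mpr hh)
    exact Subgroup.mem_subgroupOf.mp h6

lemma isPGroup_zpowers {e : Perm Ω} {f : ℕ} (h : e ^ (2 ^ f) = 1) :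
    IsPGroup 2 (Subgroup.zpowers e) := by
  apply IsPGroup.of_card_dvd_pow (n := f)
  rw [Nat.card_zpowers]
  exact orderOf_dvd_of_pow_eq_one h

lemma exists_two_part (g : Perm Ω) : ∃ o f : ℕ, Odd o ∧ (g ^ o) ^ (2 ^ f) = 1 := by
  obtain ⟨f, o, ho, h⟩ := Nat.exists_eq_two_pow_mul_odd (n := orderOf g) (orderOf_pos g).ne'
  refine ⟨o, f, ho, ?_⟩
  rw [← pow_mul, mul_comm, ← h, pow_orderOf_eq_one]

/-- `B` is a 2-subgroup of `G` of maximal order among those fixing more than `k` points. -/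
structure MaxB (G B : Subgroup (Perm Ω)) (k : ℕ) : Prop where
  le : B ≤ G
  pg : IsPGroup 2 B
  fixc : k + 1 ≤ (fixOf B).card
  max : ∀ B', B' ≤ G → IsPGroup 2 B' → k + 1 ≤ (fixOf B').card → Nat.card B' ≤ Nat.card B

/-- The normaliser of `B` in `G`. -/
noncomputable def nG (G B : Subgroup (Perm Ω)) : Subgroup (Perm Ω) :=
  G ⊓ Subgroup.normalizer (B : Set (Perm Ω))

lemma MaxB.mem_of_fix {G B : Subgroup (Perm Ω)} {k : ℕ} (h : MaxB G B k) {e : Perm Ω} (he : e ∈ nG G B)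
    {f : ℕ} (h2 : e ^ (2 ^ f) = 1) {S : Finset Ω} (hS : S ⊆ fixOf B) (hSe : ∀ x ∈ S, e x = x)
    (hc : k + 1 ≤ S.card) : e ∈ B := by
  set H := B ⊔ Subgroup.zpowers e with hH
  have hpg : IsPGroup 2 H :=
    h.pg.to_sup_of_normal_left' (isPGroup_zpowers h2) (Subgroup.zpowers_le.mpr he.2)
  have hG : H ≤ G := sup_le h.le (Subgroup.zpowers_le.mpr he.1)
  have hfix : S ⊆ fixOf H := by
    intro x hx
    rw [mem_fixOf]
    have hle : H ≤ ptS ⊤ {x} := by
      apply sup_le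
      · intro b hb
        refine ⟨trivial, fun y hy => ?_⟩
        rw [Finset.mem_singleton] at hy
        subst hy
        exact mem_fixOf.mp (hS hx) b hb
      · rw [Subgroup.zpowers_le]
        refine ⟨trivial, fun y hy => ?_⟩
        rw [Finset.mem_singleton] at hy
        subst hy
        exact hSe _ hx
    intro g hg
    exact (hle hg).2 x (Finset.mem_singleton_self x)
  have h3 := h.max H hG hpg (hc.trans (Finset.card_le_card hfix))
  have h4 : B = H := Subgroup.eq_of_le_of_card_ge le_sup_left h3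
  rw [h4]
  exact Subgroup.mem_sup_right (Subgroup.mem_zpowers e)

lemma MaxB.hb {G B : Subgroup (Perm Ω)} {k : ℕ} (h : MaxB G B k) {ι : Perm ↥(fixOf B)}
    (hι : ι ∈ rz (nG G B) (fixOf B)) (h2 : ι * ι = 1) (h1 : ι ≠ 1) : (fx ι).card ≤ k := by
  obtain ⟨g, hg, hgι⟩ := hι
  obtain ⟨o, f, ho, ho2⟩ := exists_two_part g
  have hact : ∀ i : ℕ, ∀ x : ↥(fixOf B), (g ^ i) (x : Ω) = ((ι ^ i) x : ↥(fixOf B)) := by
    intro i
    induction i with
    | zero => intro x; rfl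
    | succ i ih =>
      intro x
      rw [pow_succ', pow_succ', Perm.mul_apply, ih x, hgι]
      rfl
  have hιo : ι ^ o = ι := by
    obtain ⟨c, hc⟩ := ho
    rw [hc, pow_succ, pow_mul, pow_two, h2, one_pow, one_mul]
  by_contra hcon
  push Not at hcon
  have he : g ^ o ∈ nG G B := (nG G B).pow_mem hg o
  have hS : ((fx ι).map (Function.Embedding.subtype _)) ⊆ fixOf B := by
    intro x hx
    obtain ⟨y, -, rfl⟩ := Finset.mem_map.mp hx
    exact y.2
  have hB := h.mem_of_fix he ho2 hS (by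
    intro x hx
    obtain ⟨y, hy, rfl⟩ := Finset.mem_map.mp hx
    have h5 := hact o y
    rw [hιo, mem_fx.mp hy] at h5
    exact h5) (by
    rw [Finset.card_map]; omega)
  apply h1
  ext x
  have h5 := hact o x
  rw [hιo, mem_fixOf.mp x.2 _ hB] at h5
  simpa using h5.symm

lemma MaxB.ex {G B : Subgroup (Perm Ω)} {k : ℕ} (h : MaxB G B k)
    (hnS : ∀ t : Finset Ω, t ⊆ fixOf B → t.card = k → ¬ IsSyl (ptS G t) B)
    (t' : Finset ↥(fixOf B)) (ht' : t'.card = k) :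
    ∃ q ∈ rz (nG G B) (fixOf B), q * q = 1 ∧ fx q = t' := by
  set t : Finset Ω := t'.map (Function.Embedding.subtype _) with ht
  have htF : t ⊆ fixOf B := by
    intro x hx
    obtain ⟨y, -, rfl⟩ := Finset.mem_map.mp hx
    exact y.2
  have htc : t.card = k := by rw [ht, Finset.card_map, ht']
  have hBt : B ≤ ptS G t := fun b hb => ⟨h.le hb, fun x hx => mem_fixOf.mp (htF hx) b hb⟩
  have hns := hnS t htF htc
  -- a larger 2-group
  obtain ⟨Q, hQ, hBQ⟩ := exists_isSyl (ptS G t) B hBt h.pg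
  have hne : Q ≠ B := by
    rintro rfl
    exact hns hQ
  obtain ⟨x, hxQ, hxB, hxn⟩ := exists_normalizer_step hBQ hne hQ.pg
  have hxt := hQ.le hxQ
  have hxN : x ∈ nG G B := ⟨hxt.1, hxn⟩
  obtain ⟨f, hf⟩ : ∃ f, x ^ (2 ^ f) = 1 := by
    obtain ⟨f, hf⟩ := hQ.pg ⟨x, hxQ⟩
    refine ⟨f, ?_⟩
    have := congrArg Subtype.val hf
    simpa using this
  have hxF : ∀ y, x y ∈ fixOf B ↔ y ∈ fixOf B := fixOf_norm hxn
  set x' := rs x (fixOf B) hxF with hx'
  have hx'X : x' ∈ rz (nG G B) (fixOf B) := ⟨x, hxN, fun y => rfl⟩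
  have hx'f : x' ^ (2 ^ f) = 1 := by
    ext y
    have key : ∀ i : ℕ, ∀ y : ↥(fixOf B), (x ^ i) (y : Ω) = ((x' ^ i) y : ↥(fixOf B)) := by
      intro i
      induction i with
      | zero => intro y; rfl
      | succ i ih =>
        intro y
        rw [pow_succ', pow_succ', Perm.mul_apply, ih y]
        rfl
    have := key (2 ^ f) y
    rw [hf] at this
    simpa using this.symm
  have hx'1 : x' ≠ 1 := by
    intro h1
    apply hxB
    refine h.mem_of_fix hxN hf (Finset.Subset.refl _) (fun y hy => ?_) h.fixc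
    have := congrArg (fun τ : Perm ↥(fixOf B) => ((τ ⟨y, hy⟩ : ↥(fixOf B)) : Ω)) h1
    simpa [hx'] using this
  obtain ⟨i, hi, hi'⟩ := exists_invol_pow hx'f hx'1
  have hq : x' ^ i ∈ rz (nG G B) (fixOf B) := Subgroup.pow_mem _ hx'X i
  refine ⟨x' ^ i, hq, hi, ?_⟩
  have hcard := h.hb hq hi hi'
  symm
  apply Finset.eq_of_subset_of_card_le
  · intro y hy
    rw [mem_fx]
    apply pow_apply_eq_self_of_apply_eq_self
    apply Subtype.ext
    have h5 : (y : Ω) ∈ t := Finset.mem_map.mpr ⟨y, hy, rfl⟩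
    exact hxt.2 y h5
  · rw [ht']; exact hcard

lemma MaxB.witt {G B : Subgroup (Perm Ω)} {k : ℕ} (h : MaxB G B k) (hG : TT G k)
    {t₀ : Finset Ω} (ht₀F : t₀ ⊆ fixOf B) (ht₀c : t₀.card = k) (hS : IsSyl (ptS G t₀) B) :
    TT (rz (nG G B) (fixOf B)) k := by
  -- `B` is Sylow in each stabiliser
  have hall : ∀ t : Finset Ω, t ⊆ fixOf B → t.card = k → IsSyl (ptS G t) B := by
    intro t htF htc
    obtain ⟨g, hg, hgt⟩ := exists_conj_image hG ht₀c htc
    have h1 := hS.cj_conj g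
    rw [cj_ptS hg, hgt] at h1
    exact h1.of_card_eq (fun b hb => ⟨h.le hb, fun x hx => mem_fixOf.mp (htF hx) b hb⟩) h.pg
      (card_cj g B).symm
  intro σ' s' hs'
  have hk : k ≤ Fintype.card ↥(fixOf B) := by
    rw [Fintype.card_coe]
    have := h.fixc
    omega
  obtain ⟨t₁', hst₁, ht₁'⟩ := Finset.exists_superset_card_eq hs' hk
  set t₁ : Finset Ω := t₁'.map (Function.Embedding.subtype _) with ht₁
  have ht₁F : t₁ ⊆ fixOf B := by
    intro x hx
    obtain ⟨y, -, rfl⟩ := Finset.mem_map.mp hx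
    exact y.2
  have ht₁c : t₁.card = k := by rw [ht₁, Finset.card_map, ht₁']
  obtain ⟨g₀, hg₀, hg₀σ⟩ := hG (ofSubtype σ') t₁ ht₁c.le
  have hg₀σ' : ∀ y ∈ t₁', g₀ (y : Ω) = σ' y := by
    intro y hy
    have := hg₀σ y (Finset.mem_map_of_mem _ hy)
    rw [this]
    exact ofSubtype_apply_coe σ' y
  set t₂ := t₁.image g₀ with ht₂
  have ht₂F : t₂ ⊆ fixOf B := by
    intro x hx
    obtain ⟨y, hy, rfl⟩ := Finset.mem_image.mp hx
    obtain ⟨z, hz, rfl⟩ := Finset.mem_map.mp hy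
    have := hg₀σ' z hz
    simp only [Function.Embedding.subtype_apply] at *
    rw [this]
    exact (σ' z).2
  have ht₂c : t₂.card = k := by
    rw [ht₂, Finset.card_image_of_injective _ g₀.injective, ht₁c]
  have h1 := (hall t₁ ht₁F ht₁c).cj_conj g₀
  rw [cj_ptS hg₀, ← ht₂] at h1
  obtain ⟨u, hu, huc⟩ := h1.conj (hall t₂ ht₂F ht₂c)
  set g := u * g₀ with hg
  have hgG : g ∈ G := G.mul_mem hu.1 hg₀
  have hgn : g ∈ Subgroup.normalizer (B : Set (Perm Ω)) := by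
    rw [Subgroup.mem_normalizer_iff]
    intro b
    have h3 := huc (g₀ * b * g₀⁻¹)
    have h4 : g₀ * b * g₀⁻¹ ∈ cj g₀ B ↔ b ∈ B := by
      rw [mem_cj]
      have : g₀⁻¹ * (g₀ * b * g₀⁻¹) * g₀ = b := by group
      rw [this]
    rw [h4] at h3
    have h5 : u * (g₀ * b * g₀⁻¹) * u⁻¹ = g * b * g⁻¹ := by rw [hg]; group
    rw [h5] at h3
    exact h3
  have hgN : g ∈ nG G B := ⟨hgG, hgn⟩
  refine ⟨rs g (fixOf B) (fixOf_norm hgn), ⟨g, hgN, fun y => rfl⟩, fun y hy => ?_⟩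
  apply Subtype.ext
  rw [rs_apply, hg, Perm.mul_apply, hg₀σ' y (hst₁ hy)]
  apply hu.2
  rw [ht₂]
  refine Finset.mem_image.mpr ⟨y, Finset.mem_map_of_mem _ (hst₁ hy), ?_⟩
  simpa using hg₀σ' y (hst₁ hy)

/-- Transfer from a fixed-point set back to `Ω`. -/
lemma transfer_rz {H : Subgroup (Perm Ω)} {Φ : Finset Ω} {Δ' : Finset ↥Φ}
    (h : alternatingGroup ↥Δ' ≤ rz (rz H Φ) Δ') :
    ∃ Δ : Finset Ω, Δ.card = Δ'.card ∧ alternatingGroup ↥Δ ≤ rz H Δ := by
  set Δ : Finset Ω := Δ'.map (Function.Embedding.subtype _) with hΔ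
  refine ⟨Δ, by rw [hΔ, Finset.card_map], fun σ hσ => ?_⟩
  let e : ↥Δ' ≃ ↥Δ := Equiv.ofBijective (fun x => ⟨(x.1 : Ω), Finset.mem_map_of_mem _ x.2⟩) (by
    constructor
    · intro x y hxy
      have := congrArg Subtype.val hxy
      exact Subtype.ext (Subtype.ext this)
    · rintro ⟨z, hz⟩
      obtain ⟨y, hy, rfl⟩ := Finset.mem_map.mp hz
      exact ⟨⟨y, hy⟩, rfl⟩)
  have he : ∀ x : ↥Δ', ((e x : ↥Δ) : Ω) = ((x : ↥Φ) : Ω) := fun x => rfl
  set σ' : Perm ↥Δ' := e.symm.permCongr σ with hσ'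
  have hσ'a : σ' ∈ alternatingGroup ↥Δ' := by
    rw [Equiv.Perm.mem_alternatingGroup] at hσ ⊢
    rw [hσ', sign_permCongr, hσ]
  obtain ⟨ρ, hρ, hρσ⟩ := h hσ'a
  obtain ⟨g, hg, hgρ⟩ := hρ
  refine ⟨g, hg, fun z => ?_⟩
  obtain ⟨x, rfl⟩ := e.surjective z
  rw [he, hgρ, hρσ, ← he]
  simp [hσ', Equiv.permCongr_apply]

lemma rz_mono {H G : Subgroup (Perm Ω)} (h : H ≤ G) (Δ : Finset Ω) : rz H Δ ≤ rz G Δ := by
  rintro σ ⟨g, hg, hgσ⟩
  exact ⟨g, h hg, hgσ⟩

end Cfsg.Agent.LW
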